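import Cfsg.Agent.Lib.AltFusion.Small

/-!
The inducers of a subsystem contain all even monomial permutations.
-/

set_option autoImplicit false
set_option linter.unusedSectionVars false

namespace CfsgLib.AltFusion

open Equiv

variable {p : ℕ} [Fact p.Prime] {β : Type*} [Fintype β] [DecidableEq β] {n : ℕ}

theorem zmod_three_zero_ne_one : (0 : ZMod 3) ≠ 1 := by decide

theorem perm_three_flip : swap (0 : ZMod 3) 1 * (Equiv.addRight (1 : ZMod 3))⁻¹
    = (Equiv.addRight (1 : ZMod 3) : Perm (ZMod 3)) * swap 0 1 := by decide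

theorem swap_shift_three [Fact (Nat.Prime 3)] (j : ZMod 3 ↪ β) :
    swap (j 0) (j 1) * (shiftOn j 1)⁻¹ = shiftOn j 1 * swap (j 0) (j 1) := by
  have h : swap (j 0) (j 1) = Perm.viaEmbeddingHom j (swap 0 1) := by
    refine Equiv.ext fun b => ?_
    rw [Perm.viaEmbeddingHom_apply]
    by_cases hb : b ∈ Set.range j
    · obtain ⟨y, rfl⟩ := hb
      rw [Perm.viaEmbedding_apply, j.injective.swap_apply]
    · rw [Perm.viaEmbedding_apply_of_notMem _ _ _ hb, swap_apply_of_ne_of_ne
        (fun h => hb ⟨0, h.symm⟩) (fun h => hb ⟨1, h.symm⟩)]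
  rw [h, shiftOn, ← map_inv, ← map_mul, ← map_mul, perm_three_flip]

/-- Translations of the plane on the blocks in the range of `j`, times the other blocks. -/
def planeGroup (j : ZMod p ↪ β) : Subgroup (Perm (β × ZMod p)) where
  carrier := {g | ∃ (x : ZMod p) (v : β → ZMod p), (∀ y, v (j y) = v (j 0)) ∧
    blk v (shiftOn j x) = g}
  one_mem' := ⟨0, 0, fun _ => rfl, by rw [shiftOn_zero]; exact aff_one⟩
  mul_mem' := by
    rintro _ _ ⟨x, v, hv, rfl⟩ ⟨x', v', hv', rfl⟩
    refine ⟨x' + x, _, fun y => ?_, by rw [blk_mul, shiftOn_add]⟩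
    rw [shiftOn_apply, shiftOn_apply, hv' y, hv (y + x'), hv (0 + x')]
  inv_mem' := by
    rintro _ ⟨x, v, hv, rfl⟩
    have hinv : (shiftOn j x)⁻¹ = shiftOn j (-x) :=
      inv_eq_of_mul_eq_one_right (by rw [← shiftOn_add, neg_add_cancel, shiftOn_zero])
    refine ⟨-x, fun i => - v (shiftOn j (-x) i), fun y => ?_, by rw [blk_inv, hinv]⟩
    show -v (shiftOn j (-x) (j y)) = -v (shiftOn j (-x) (j 0))
    rw [shiftOn_apply, shiftOn_apply, hv (y + -x), hv (0 + -x)]

theorem planeGroup_le {W : Subgroup (Perm β)} {j : ZMod p ↪ β} (hj : ∀ x, shiftOn j x ∈ W) :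
    planeGroup j ≤ wreathBy W := by
  rintro _ ⟨x, v, -, rfl⟩
  exact blk_mem_wreathBy.2 (hj x)

/-- Linear maps of the plane normalize the plane group. -/
theorem onPlane_normalizes (j : ZMod p ↪ β) {f : Perm (ZMod p × ZMod p)} (hf : Additive' f) :
    ∀ y ∈ planeGroup j, onPlane j f * y * (onPlane j f)⁻¹ ∈ planeGroup j := by
  classical
  rintro _ ⟨x, v, hv, rfl⟩
  set z := f (x, v (j 0))
  refine ⟨z.1, fun i => if i ∈ Set.range j then z.2 else v i, fun y => by simp, ?_⟩
  rw [eq_mul_inv_iff_mul_eq]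
  apply Equiv.ext; rintro ⟨i, a⟩
  by_cases hi : i ∈ Set.range j
  · obtain ⟨y, rfl⟩ := hi
    simp only [Perm.mul_apply, onPlane_apply, aff_apply, shiftOn_apply, Units.val_one, one_mul,
      Set.mem_range_self, if_true, hv y]
    rw [show (y + x, a + v (j 0)) = (y, a) + (x, v (j 0)) from rfl, hf]
    rfl
  · simp only [Perm.mul_apply, onPlane_apply_of_notMem j _ hi, aff_apply,
      shiftOn_apply_of_notMem j _ hi, Units.val_one, one_mul, if_neg hi]

theorem planeGroup_centralizing {j : ZMod p ↪ β} {g : Perm (β × ZMod p)}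
    (hg : ∀ q ∈ planeGroup j, g * q = q * g) : g ∈ planeGroup j := by
  classical
  have hsing : ∀ l : β, l ∉ Set.range j → ∀ a : ZMod p,
      (tau (Pi.single l a) : Perm (β × ZMod p)) ∈ planeGroup j := fun l hl a =>
    ⟨0, Pi.single l a, fun y => by
      rw [Pi.single_eq_of_ne (fun h => hl ⟨y, h⟩), Pi.single_eq_of_ne (fun h => hl ⟨0, h⟩)],
      by rw [shiftOn_zero]⟩
  have hout : ∀ l, l ∉ Set.range j → ∀ a, g (l, a) = (l, (g (l, 0)).2 + a) := by
    intro l hl a
    have h1 := DFunLike.congr_fun (hg _ (hsing l hl a)) (l, 0)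
    have h2 := DFunLike.congr_fun (hg _ (hsing l hl 1)) (l, 0)
    simp only [Perm.mul_apply, aff_apply, Perm.one_apply, Units.val_one, one_mul, zero_add,
      Pi.single_eq_same] at h1 h2
    by_cases h : (g (l, 0)).1 = l
    · rw [h1, h, Pi.single_eq_same]
    · rw [Pi.single_eq_of_ne h, add_zero] at h2
      exact absurd (congrArg Prod.snd (g.injective h2)) one_ne_zero
  obtain ⟨x₀, hx₀⟩ : ∃ x, j x = (g (j 0, 0)).1 := by
    by_contra hne
    have hl : (g (j 0, 0)).1 ∉ Set.range j := fun ⟨x, hx⟩ => hne ⟨x, hx⟩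
    have h1 := DFunLike.congr_fun (hg _ (hsing _ hl 1)) (j 0, 0)
    simp only [Perm.mul_apply, aff_apply, Perm.one_apply, Units.val_one, one_mul, zero_add,
      Pi.single_eq_same] at h1
    rw [Pi.single_eq_of_ne (fun h => hl ⟨0, h⟩)] at h1
    have h2 := congrArg Prod.snd h1
    simp at h2
  refine ⟨x₀, fun i => if i ∈ Set.range j then (g (j 0, 0)).2 else (g (i, 0)).2,
    fun y => by simp, Equiv.ext ?_⟩
  rintro ⟨i, a⟩
  by_cases hi : i ∈ Set.range j
  · obtain ⟨y, rfl⟩ := hi
    have hq : blk (fun i => if i ∈ Set.range j then a else 0) (shiftOn j y) ∈ planeGroup j :=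
      ⟨y, _, fun y => by simp, rfl⟩
    have h1 := DFunLike.congr_fun (hg _ hq) (j 0, 0)
    simp only [Perm.mul_apply, aff_apply, Units.val_one, one_mul, zero_add, shiftOn_apply,
      Set.mem_range_self, if_true] at h1
    rw [h1, ← hx₀]
    simp [shiftOn_apply, add_comm]
  · rw [aff_apply, hout i hi a]
    simp [shiftOn_apply_of_notMem j _ hi, hi, add_comm]

theorem bot_centralizing {g : Perm (β × ZMod p)}
    (hg : ∀ q ∈ wreathBy (p := p) (⊥ : Subgroup (Perm β)), g * q = q * g) :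
    g ∈ wreathBy (⊥ : Subgroup (Perm β)) := by
  refine ⟨fun i => (g (i, 0)).2, 1, Subgroup.one_mem _, Equiv.ext ?_⟩
  rintro ⟨i, a⟩
  have hmem : ∀ b, tau (Pi.single i b) ∈ wreathBy (p := p) (⊥ : Subgroup (Perm β)) := fun b =>
    blk_mem_wreathBy.2 (Subgroup.one_mem _)
  have h1 := DFunLike.congr_fun (hg _ (hmem a)) (i, 0)
  have h2 := DFunLike.congr_fun (hg _ (hmem 1)) (i, 0)
  simp only [Perm.mul_apply, aff_apply, Perm.one_apply, Units.val_one, one_mul, zero_add,
    Pi.single_eq_same] at h1 h2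
  by_cases h : (g (i, 0)).1 = i
  · rw [h1, h, Pi.single_eq_same]
    simp [add_comm]
  · rw [Pi.single_eq_of_ne h, add_zero] at h2
    exact absurd (congrArg Prod.snd (g.injective h2)) one_ne_zero

theorem bot_move (x : β × ZMod p) :
    ∃ q ∈ wreathBy (p := p) (⊥ : Subgroup (Perm β)), q x ≠ x := by
  refine ⟨tau (fun _ => 1), blk_mem_wreathBy.2 (Subgroup.one_mem _), fun h => ?_⟩
  simpa using congrArg Prod.snd h

theorem planeGroup_move (j : ZMod p ↪ β) (x : β × ZMod p) : ∃ q ∈ planeGroup j, q x ≠ x := by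
  refine ⟨tau (fun _ => 1), ⟨0, _, fun _ => rfl, by rw [shiftOn_zero]⟩, fun h => ?_⟩
  simpa using congrArg Prod.snd h

theorem aff_normalizes_bot (c : β → (ZMod p)ˣ) (v : β → ZMod p) (π : Perm β) :
    ∀ y ∈ wreathBy (p := p) (⊥ : Subgroup (Perm β)),
      aff c v π * y * (aff c v π)⁻¹ ∈ wreathBy (p := p) (⊥ : Subgroup (Perm β)) := by
  intro y hy
  obtain ⟨w, rfl⟩ := exists_tau_of_mem_bot hy
  rw [aff_eq_tau_mul, mul_inv_rev, mul_assoc (tau _) (aff c 0 π), aff_zero_mul_tau c π w]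
  simp only [mul_assoc, mul_inv_cancel_left]
  exact mul_mem (blk_mem_wreathBy.2 (Subgroup.one_mem _))
    (mul_mem (blk_mem_wreathBy.2 (Subgroup.one_mem _)) (inv_mem (blk_mem_wreathBy.2 (Subgroup.one_mem _))))

/-- A subgroup normalized by the alternating group and containing a shift contains it. -/
theorem alt_le_of_shift (hp : p ≠ 2) (h5 : 5 ≤ p → 5 ≤ Fintype.card β) {j : ZMod p ↪ β}
    {K : Subgroup (Perm β)} (hconj : ∀ ρ : Perm β, Perm.sign ρ = 1 → ∀ x ∈ K, ρ * x * ρ⁻¹ ∈ K)
    (hs : shiftOn j 1 ∈ K) : alternatingGroup β ≤ K := by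
  classical
  have hsp : Perm.sign (shiftOn j (1 : ZMod p)) = 1 := sign_eq_one_of_pow_odd hp (shiftOn_one_pow j)
  have hsupp : (shiftOn j (1 : ZMod p)).support = Finset.univ.map j := by
    ext b
    simp only [Perm.mem_support, Finset.mem_map, Finset.mem_univ, true_and]
    refine ⟨fun h => ?_, ?_⟩
    · by_contra hb
      exact h (shiftOn_apply_of_notMem j _ fun ⟨y, hy⟩ => hb ⟨y, hy⟩)
    · rintro ⟨y, rfl⟩ h
      rw [shiftOn_apply] at h
      simp at h
  have hp5 : p = 3 ∨ 5 ≤ p := by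
    rcases Nat.lt_or_ge p 5 with h | h
    · left
      have h2 := (Fact.out : p.Prime).two_le
      have h4 : p ≠ 4 := fun h4 => absurd (h4 ▸ (Fact.out : p.Prime)) (by norm_num)
      omega
    · exact Or.inr h
  rcases hp5 with h | h
  · subst h
    have h3' : (shiftOn j (1 : ZMod 3)).IsThreeCycle :=
      card_support_eq_three_iff.1 (by rw [hsupp, Finset.card_map, Finset.card_univ, ZMod.card])
    rw [← Equiv.Perm.closure_three_cycles_eq_alternating, Subgroup.closure_le]
    intro τ hτ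
    obtain ⟨g, hg⟩ := isConj_iff.1 (Perm.isConj_iff_cycleType_eq.2
      (show (shiftOn j (1 : ZMod 3)).cycleType = τ.cycleType by rw [h3'.cycleType, hτ.cycleType]))
    rcases Int.units_eq_one_or (Perm.sign g) with hs' | hs'
    · rw [← hg]; exact hconj g hs' _ hs
    · set s := shiftOn j (1 : ZMod 3)
      have hfl := swap_shift_three j
      have he : g * swap (j 0) (j 1) * s⁻¹ * (g * swap (j 0) (j 1))⁻¹ = τ := by
        rw [mul_assoc g, hfl, mul_inv_rev, ← hg]; simp only [mul_assoc, mul_inv_cancel_left]; rfl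
      rw [← he]
      refine hconj _ ?_ _ (inv_mem hs)
      rw [map_mul, hs', Perm.sign_swap (fun h => zmod_three_zero_ne_one (j.injective h))]
      simp
  · have hsimple : IsSimpleGroup (alternatingGroup β) :=
      alternatingGroup.isSimpleGroup (by rw [Nat.card_eq_fintype_card]; exact h5 h)
    have hn : (K.subgroupOf (alternatingGroup β)).Normal :=
      ⟨fun x hx g => hconj g (Perm.mem_alternatingGroup.1 g.2) _ hx⟩
    rcases hn.eq_bot_or_eq_top with hb | ht
    · exfalso
      have h1 : (⟨shiftOn j 1, Perm.mem_alternatingGroup.2 hsp⟩ : alternatingGroup β)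
          ∈ K.subgroupOf (alternatingGroup β) := hs
      rw [hb, Subgroup.mem_bot] at h1
      have h2 := DFunLike.congr_fun (congrArg Subtype.val h1) (j 0)
      simp [shiftOn_apply] at h2
    · intro x hx
      have h1 : (⟨x, hx⟩ : alternatingGroup β) ∈ K.subgroupOf (alternatingGroup β) := by
        rw [ht]; exact Subgroup.mem_top _
      exact Subgroup.mem_subgroupOf.1 h1


section Main

variable {e : β × ZMod p ↪ Fin n} {S : Sylow p (alternatingGroup (Fin n))} (I : Inducers S)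
  {W : Subgroup (Perm β)} (hS : (S : Subgroup (alternatingGroup (Fin n))) = model W e)
  (hp : p ≠ 2) (hWp : IsPGroup p W)
  (hfix : ∀ y z : Fin n, y ∉ Set.range e → z ∉ Set.range e → y = z)
  (h3 : 3 ≤ Fintype.card β) (h5 : 5 ≤ p → 5 ≤ Fintype.card β)
  {j : ZMod p ↪ β} (hj : ∀ x, shiftOn j x ∈ W)

include hS in
theorem lift_bot_le : lift e (wreathBy (p := p) (⊥ : Subgroup (Perm β))) ≤ (S : Subgroup _) :=
  lift_le hS fun _ ⟨v, π, hπ, h⟩ => ⟨v, π, Subgroup.mem_bot.1 hπ ▸ W.one_mem, h⟩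

local notation "IP" => small I (wreathBy (p := p) (⊥ : Subgroup (Perm β))) (lift_bot_le hS)

include hS hp hWp hfix hj in
/-- The diagonal element on the plane. -/
theorem diag_mem (t : (ZMod p)ˣ) : onPlane j (diagT t) ∈ IP := by
  classical
  set R := planeGroup j
  have hRW : R ≤ wreathBy W := planeGroup_le hj
  have hRS := lift_le (e := e) hS hRW
  have hsign : ∀ q ∈ R, Perm.sign q = 1 := fun q hq => sign_eq_one_of_mem_wreathBy hp hWp (hRW hq)
  -- transvections
  have hup : ∀ s, onPlane j (upT s) ∈ small I R hRS := fun s => small_inner hS hRS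
    (by rw [onPlane_upT]; exact blk_mem_wreathBy.2 W.one_mem) (sign_upT hp j s)
    (onPlane_normalizes j (additive_upT s))
  have hw : Perm.sign (onPlane j (weylT (1 : (ZMod p)ˣ))) = 1 := by
    simp only [weylT, map_mul, sign_upT hp j]
    rw [sign_onPlane, sign_lowT hp]
    simp
  have hlow : ∀ s, onPlane j (lowT s) ∈ small I R hRS := fun s => by
    have h := small_conj hw (onPlane_normalizes j (additive_weylT 1)) (hup (-s))
    rwa [← map_mul, lowT_eq_conj, map_mul, mul_inv_cancel_right] at h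
  have hweyl : ∀ s : (ZMod p)ˣ, onPlane j (weylT s) ∈ small I R hRS := fun s => by
    rw [weylT, map_mul, map_mul]
    exact mul_mem (mul_mem (hup _) (hlow _)) (hup _)
  have hdiag : onPlane j (diagT t) ∈ small I R hRS := by
    rw [show diagT t = weylT t * (weylT 1)⁻¹ from eq_mul_inv_iff_mul_eq.2 (diagT_eq t), map_mul,
      map_inv]
    exact mul_mem (hweyl t) (inv_mem (hweyl 1))
  -- go up to the group with all base elements, then down
  set C : Subgroup (Perm β) := Subgroup.zpowers (shiftOn j 1)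
  have hshift : ∀ x, shiftOn j x ∈ C := fun x => by
    have h := shiftOn_natCast j (ZMod.val x)
    rw [ZMod.natCast_zmod_val] at h
    rw [h]
    exact pow_mem (Subgroup.mem_zpowers _) _
  set R' := wreathBy (p := p) C
  have hR'S : lift e R' ≤ (S : Subgroup _) := lift_le hS fun _ ⟨v, π, hπ, h⟩ =>
    ⟨v, π, (Subgroup.zpowers_le.2 (hj 1)) hπ, h⟩
  set c : β → (ZMod p)ˣ := fun i => if i ∈ Set.range j then t else 1 with hc
  set πd : Perm β := Perm.viaEmbeddingHom j (Units.mulLeft t⁻¹) with hπd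
  have hdeq : onPlane j (diagT t) = aff c (0 : β → ZMod p) πd := by
    apply Equiv.ext; rintro ⟨i, a⟩
    by_cases hi : i ∈ Set.range j
    · obtain ⟨y, rfl⟩ := hi
      simp only [onPlane_apply, aff_apply, hπd, Perm.viaEmbeddingHom_apply,
        Perm.viaEmbedding_apply, hc, Set.mem_range_self, if_true, Pi.zero_apply, add_zero]
      rfl
    · simp only [onPlane_apply_of_notMem j _ hi, aff_apply, hπd, Perm.viaEmbeddingHom_apply,
        Perm.viaEmbedding_apply_of_notMem _ j _ hi, hc, if_neg hi, Pi.zero_apply, add_zero,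
        Units.val_one, one_mul]
  have hnorm' : ∀ y ∈ R', onPlane j (diagT t) * y * (onPlane j (diagT t))⁻¹ ∈ R' := by
    rintro _ ⟨v, σ, hσ, rfl⟩
    obtain ⟨k, rfl⟩ : ∃ k : ℕ, shiftOn j (k : ZMod p) = σ := by
      obtain ⟨k, rfl⟩ := mem_zpowers_iff_mem_range_orderOf.1 hσ |> Finset.mem_image.1 |>
        fun ⟨k, _, hk⟩ => (⟨k, hk⟩ : ∃ k : ℕ, shiftOn j (1 : ZMod p) ^ k = σ)
      exact ⟨k, shiftOn_natCast j k⟩
    have hcs : ∀ i, c (shiftOn j (k : ZMod p) i) = c i := fun i => by
      by_cases hi : i ∈ Set.range j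
      · obtain ⟨y, rfl⟩ := hi
        simp only [hc, shiftOn_apply, Set.mem_range_self, if_true]
      · rw [shiftOn_apply_of_notMem j _ hi]
    rw [hdeq, aff_zero_mul_blk c πd _ v hcs, mul_inv_cancel_right]
    refine blk_mem_wreathBy.2 ?_
    rw [hπd, shiftOn, ← map_inv, ← map_mul, ← map_mul,
      show (Units.mulLeft t⁻¹ : Perm (ZMod p)) * Equiv.addRight (k : ZMod p) * (Units.mulLeft t⁻¹)⁻¹
        = Equiv.addRight ((↑t⁻¹ : ZMod p) * k) from by
        rw [mul_inv_eq_iff_eq_mul]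
        exact Equiv.ext fun z => mul_add _ _ _]
    exact hshift _
  have hQR : R ≤ R' := by
    rintro _ ⟨x, v, -, rfl⟩
    exact blk_mem_wreathBy.2 (hshift x)
  have h1 := small_up (hQ := hRS) hQR hR'S
    (lift_selfCentralizing e hfix hsign (planeGroup_move j) fun g hg => planeGroup_centralizing hg)
    hnorm' hdiag
  have hPR : wreathBy (p := p) (⊥ : Subgroup (Perm β)) ≤ R' := by
    rintro _ ⟨v, π, hπ, rfl⟩
    exact blk_mem_wreathBy.2 (Subgroup.mem_bot.1 hπ ▸ C.one_mem)
  refine small_down hPR (lift_bot_le hS) ?_ h1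
  rw [hdeq]
  exact aff_normalizes_bot c 0 πd

include hS hp hj h5 in
theorem alt_mem {σ : Perm β} (hσ : Perm.sign σ = 1) : blk (0 : β → ZMod p) σ ∈ IP := by
  classical
  set K : Subgroup (Perm β) := (IP).comap blkHom
  have hconj : ∀ ρ : Perm β, Perm.sign ρ = 1 → ∀ x ∈ K, ρ * x * ρ⁻¹ ∈ K := by
    intro ρ hρ x hx
    show blkHom (ρ * x * ρ⁻¹) ∈ IP
    rw [map_mul, map_mul, map_inv]
    refine small_conj ?_ (aff_normalizes_bot _ _ _) hx
    rw [blkHom_apply, sign_blk_zero, hρ, one_pow]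
  have hsp : Perm.sign (shiftOn j (1 : ZMod p)) = 1 := sign_eq_one_of_pow_odd hp (shiftOn_one_pow j)
  have hs : shiftOn j 1 ∈ K := by
    show blkHom (shiftOn j 1) ∈ IP
    refine small_inner hS _ (blk_mem_wreathBy.2 (hj 1)) ?_ (aff_normalizes_bot _ _ _)
    rw [blkHom_apply, sign_blk_zero, hsp, one_pow]
  exact alt_le_of_shift hp h5 hconj hs (Perm.mem_alternatingGroup.2 hσ)

end Main

end CfsgLib.AltFusion
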