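import Cfsg.Agent.Lib.AltFusion.Parity

/-!
A fusion-closed subgroup of the wreath Sylow subgroup containing a central element contains all
elements of order `p`.
-/

set_option autoImplicit false
set_option linter.unusedSectionVars false

namespace CfsgLib.AltFusion

open Equiv

variable {p : ℕ} [Fact p.Prime] {β : Type*} [Fintype β] [DecidableEq β]

theorem exists_third (h3 : 3 ≤ Fintype.card β) (i j : β) : ∃ k, k ≠ i ∧ k ≠ j := by
  obtain ⟨k, -, hk⟩ := Finset.exists_mem_notMem_of_card_lt_card
    (s := ({i, j} : Finset β)) (t := Finset.univ)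
    ((Finset.card_le_two).trans_lt (by rw [Finset.card_univ]; omega))
  simp only [Finset.mem_insert, Finset.mem_singleton, not_or] at hk
  exact ⟨k, hk⟩

/-- Fusion-closed subgroups. -/
structure Closed (W : Subgroup (Perm β)) (U : Subgroup (Perm (β × ZMod p))) : Prop where
  fus : ∀ y ∈ U, ∀ g : Perm (β × ZMod p), Perm.sign g = 1 → g * y * g⁻¹ ∈ wreathBy W →
    g * y * g⁻¹ ∈ U

theorem zmod_two_cases : ∀ a : ZMod 2, a = 0 ∨ a = 1 := by decide

theorem zmod_two_zero_ne_one : (0 : ZMod 2) ≠ 1 := by decide

theorem zmod_two_add : (1 : ZMod 2) + 1 = 0 := by decide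

theorem sign_addRight_two : Perm.sign (Equiv.addRight (1 : ZMod 2)) = -1 := by decide

namespace Closed

variable {W : Subgroup (Perm β)} {U : Subgroup (Perm (β × ZMod p))}

/-- The base elements of `U`, as a set of functions. -/
def base (U : Subgroup (Perm (β × ZMod p))) : AddSubgroup (β → ZMod p) where
  carrier := {v | tau v ∈ U}
  zero_mem' := by show tau 0 ∈ U; rw [tau_zero]; exact U.one_mem
  add_mem' := fun {v w} hv hw => by show tau (v + w) ∈ U; rw [← tau_mul]; exact U.mul_mem hv hw
  neg_mem' := fun {v} hv => by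
    show tau (-v) ∈ U
    have h := U.inv_mem hv
    rwa [inv_eq_of_mul_eq_one_right (a := tau v) (b := tau (-v))
      (by rw [tau_mul, add_neg_cancel, tau_zero])] at h

theorem mem_base {v : β → ZMod p} : v ∈ base U ↔ tau v ∈ U := Iff.rfl

theorem smul_mem_base {v : β → ZMod p} (hv : v ∈ base U) (a : ZMod p) : a • v ∈ base U := by
  have h := (base U).nsmul_mem hv (ZMod.val a)
  rwa [show ZMod.val a • v = a • v from funext fun i => by simp [nsmul_eq_mul]] at h

/-- Base elements are closed under even monomial changes of coordinates. -/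
theorem mono_mem_base (hU : Closed W U) {v : β → ZMod p} (hv : v ∈ base U)
    (c : β → (ZMod p)ˣ) (π : Perm β) (hs : Perm.sign (aff c (0 : β → ZMod p) π) = 1) :
    (fun i => (c (π.symm i) : ZMod p) * v (π.symm i)) ∈ base U := by
  have he : aff c (0 : β → ZMod p) π * tau v
      = tau (fun i => (c (π.symm i) : ZMod p) * v (π.symm i)) * aff c (0 : β → ZMod p) π := by
    simp [aff_mul]
  rw [mem_base, ← mul_inv_eq_iff_eq_mul.2 he]
  refine hU.fus _ hv _ hs ?_
  rw [mul_inv_eq_iff_eq_mul.2 he]
  exact blk_mem_wreathBy.2 W.one_mem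

theorem perm_mem_base (hU : Closed W U) {v : β → ZMod p} (hv : v ∈ base U) (π : Perm β)
    (hs : Perm.sign π ^ p = 1) : (fun i => v (π.symm i)) ∈ base U := by
  have h := hU.mono_mem_base hv (fun _ => 1) π (by rw [← hs]; exact sign_blk_zero π)
  simpa using h

theorem three_mem_base (hU : Closed W U) {v : β → ZMod p} (hv : v ∈ base U) {i j k : β}
    (hij : i ≠ j) (hjk : j ≠ k) (hik : i ≠ k) :
    Pi.single i (v j - v i) + Pi.single j (v k - v j) + Pi.single k (v i - v k) ∈ base U := by
  have h := (base U).sub_mem (hU.perm_mem_base hv (swap j k * swap i j)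
    (by rw [map_mul, Perm.sign_swap hjk, Perm.sign_swap hij]; simp)) hv
  convert h using 1
  funext x
  rcases eq_or_ne x i with rfl | hxi
  · simp [Perm.mul_def, swap_apply_of_ne_of_ne, hij, hik, hjk, hij.symm, hik.symm, hjk.symm]
  rcases eq_or_ne x j with rfl | hxj
  · simp [Perm.mul_def, swap_apply_of_ne_of_ne, hij, hik, hjk, hij.symm, hik.symm, hjk.symm]
  rcases eq_or_ne x k with rfl | hxk
  · simp [Perm.mul_def, swap_apply_of_ne_of_ne, hij, hik, hjk, hij.symm, hik.symm, hjk.symm]
  · simp [Perm.mul_def, swap_apply_of_ne_of_ne, hxi, hxj, hxk]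

/-- The central element is a base element. -/
theorem exists_base_ne_zero (hUW : U ≤ wreathBy W) (h3 : 3 ≤ Fintype.card β)
    {z : Perm (β × ZMod p)} (hz : z ∈ U) (hz1 : z ≠ 1)
    (hcent : ∀ y ∈ wreathBy W, Perm.sign y = 1 → z * y = y * z) :
    ∃ v ∈ base U, v ≠ 0 := by
  obtain ⟨v, σ, -, rfl⟩ := hUW hz
  have hσ : σ = 1 := by
    refine Equiv.ext fun i => ?_
    by_contra hne
    obtain ⟨l, hl1, hl2⟩ := exists_third h3 i (σ i)
    set w : β → ZMod p := Pi.single i 1 - Pi.single l 1 with hw
    have h := hcent (tau w) (blk_mem_wreathBy.2 W.one_mem) (sign_tau_sub_single i l 1)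
    rw [blk_mul, blk_mul] at h
    have h' := congrFun (aff_inj h).2.1 i
    simp only [Perm.one_apply] at h'
    have hne' : σ i ≠ i := hne
    rw [add_comm, add_left_cancel_iff] at h'
    simp [hw, hne', hl1.symm, hl2.symm] at h'
  subst hσ
  exact ⟨v, hz, fun h => hz1 (by rw [h]; exact tau_zero)⟩

theorem single_mem_of_odd (hU : Closed W U) (hp : p ≠ 2) (h3 : 3 ≤ Fintype.card β)
    {v : β → ZMod p} (hv : v ∈ base U) (hv0 : v ≠ 0) (w : β → ZMod p) : w ∈ base U := by
  have h2 : (2 : ZMod p) ≠ 0 := by
    intro h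
    exact hp ((Nat.prime_dvd_prime_iff_eq (Fact.out : p.Prime) Nat.prime_two).1
      ((ZMod.natCast_eq_zero_iff 2 p).1 (by simpa using h)))
  -- negating two coordinates
  have hflip : ∀ u ∈ base U, ∀ i j : β, i ≠ j →
      (Pi.single i (u i) + Pi.single j (u j) : β → ZMod p) ∈ base U := by
    intro u hu i j hij
    have hs : Perm.sign (aff (fun x => if x = i ∨ x = j then (-1 : (ZMod p)ˣ) else 1)
        (0 : β → ZMod p) 1) = 1 := by
      have he : aff (fun x => if x = i ∨ x = j then (-1 : (ZMod p)ˣ) else 1) (0 : β → ZMod p) 1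
          = prodCongrRight fun x => if x = i ∨ x = j then Equiv.neg (ZMod p) else 1 := by
        apply Equiv.ext; rintro ⟨x, a⟩
        by_cases hx : x = i ∨ x = j <;> simp [hx]
      rw [he, Perm.sign_prodCongrRight, ← Finset.prod_subset (Finset.subset_univ {i, j})
        (fun x _ hx => by
          simp only [Finset.mem_insert, Finset.mem_singleton] at hx
          simp [if_neg hx]), Finset.prod_pair hij]
      simp [Int.units_mul_self]
    have h := (base U).sub_mem hu (hU.mono_mem_base hu _ 1 hs)
    have h' := smul_mem_base h (2 : ZMod p)⁻¹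
    convert h' using 1
    have hone : ∀ y, (1 : Perm β).symm y = y := fun _ => rfl
    funext x
    by_cases hxi : x = i
    · subst hxi
      simp [hij, hone, sub_neg_eq_add, ← two_mul, h2]
    by_cases hxj : x = j
    · subst hxj
      simp [hxi, hone, sub_neg_eq_add, ← two_mul, h2]
    · simp [hxi, hxj, hone]
  obtain ⟨i, hi⟩ := Function.ne_iff.1 hv0
  obtain ⟨j, hji, -⟩ := exists_third h3 i i
  obtain ⟨k, hki, hkj⟩ := exists_third h3 i j
  have h1 := hflip v hv i j hji.symm
  have h4 := hflip _ h1 i k hki.symm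
  have hsingle : (Pi.single i (v i) : β → ZMod p) ∈ base U := by
    convert h4 using 1
    funext x
    simp [hki, hkj, hji.symm]
  have hall : ∀ (l : β) (a : ZMod p), (Pi.single l a : β → ZMod p) ∈ base U := by
    intro l a
    have hb : (Pi.single l (v i) : β → ZMod p) ∈ base U := by
      rcases eq_or_ne l i with rfl | hli
      · exact hsingle
      obtain ⟨q, hqi, hql⟩ := exists_third h3 i l
      have h5 := hU.perm_mem_base hsingle (swap i l * swap l q)
        (by rw [map_mul, Perm.sign_swap hli.symm, Perm.sign_swap hql.symm]; simp)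
      convert h5 using 1
      funext x
      rcases eq_or_ne x l with rfl | hxl
      · simp [Perm.mul_def, swap_apply_of_ne_of_ne, hqi.symm, hli.symm]
      rcases eq_or_ne x i with rfl | hxi
      · simp [Perm.mul_def, hli.symm, hqi]
      rcases eq_or_ne x q with rfl | hxq
      · simp [Perm.mul_def, swap_apply_of_ne_of_ne, hxl, hxi, hli]
      · simp [Perm.mul_def, swap_apply_of_ne_of_ne, hxl, hxi, hxq]
    have h6 := smul_mem_base hb (a * (v i)⁻¹)
    convert h6 using 1
    rw [← Pi.single_smul', smul_eq_mul, mul_assoc, inv_mul_cancel₀ hi, mul_one]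
  rw [← Finset.univ_sum_single w]
  exact AddSubgroup.sum_mem _ fun l _ => hall l _

theorem even_mem_of_two (hU : Closed W U) (hp : p = 2) (h3 : 3 ≤ Fintype.card β)
    {j : ZMod p ↪ β} (hj : ∀ x, shiftOn j x ∈ W) {v : β → ZMod p} (hv : v ∈ base U) (hv0 : v ≠ 0)
    (hve : ∀ y ∈ U, Perm.sign y = 1) (K : Finset β) (hK : Even K.card) :
    (fun x => if x ∈ K then (1 : ZMod p) else 0) ∈ base U := by
  subst hp
  have h01 : ∀ a : ZMod 2, a = 0 ∨ a = 1 := zmod_two_cases
  -- some element of weight two
  have hw : ∃ a b : β, a ≠ b ∧ (Pi.single a 1 + Pi.single b 1 : β → ZMod 2) ∈ base U := by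
    by_cases hc : ∃ a b, v a ≠ v b
    · obtain ⟨a, b, hab⟩ := hc
      have hab' : a ≠ b := fun h => hab (by rw [h])
      obtain ⟨k, hka, hkb⟩ := exists_third h3 a b
      have h := hU.three_mem_base hv hab' hkb.symm hka.symm
      rcases h01 (v a) with ha | ha <;> rcases h01 (v b) with hb | hb <;>
        rcases h01 (v k) with hk | hk <;> simp [ha, hb] at hab
      · exact ⟨a, b, hab', by simpa [ha, hb, hk] using h⟩
      · exact ⟨a, k, hka.symm, by simpa [ha, hb, hk] using h⟩
      · exact ⟨a, k, hka.symm, by simpa [ha, hb, hk] using h⟩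
      · exact ⟨a, b, hab', by simpa [ha, hb, hk] using h⟩
    · push Not at hc
      have hv1 : v = fun _ => 1 := by
        obtain ⟨a, ha⟩ := Function.ne_iff.1 hv0
        funext x
        rw [hc x a]
        exact (h01 (v a)).resolve_left ha
      subst hv1
      set a := j 0
      set b := j 1
      have hab : a ≠ b := fun h => zmod_two_zero_ne_one (j.injective h)
      have hsw : swap a b ∈ W := by
        have he : swap a b = shiftOn j 1 := by
          refine Equiv.ext fun x => ?_
          by_cases hx : x ∈ Set.range j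
          · obtain ⟨y, rfl⟩ := hx
            rw [shiftOn_apply]
            rcases h01 y with rfl | rfl
            · simp [a, b]
            · rw [zmod_two_add]
              simp [a, b]
          · rw [shiftOn_apply_of_notMem _ _ hx,
              swap_apply_of_ne_of_ne (fun h => hx ⟨0, h.symm⟩) (fun h => hx ⟨1, h.symm⟩)]
        rw [he]
        exact hj 1
      obtain ⟨k, hka, hkb⟩ := exists_third h3 a b
      have hk1 : ((k, (0 : ZMod 2))) ≠ (k, 1) := by simp
      set u : β → ZMod 2 := fun x => if x = a ∨ x = b then 0 else 1 with hu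
      set g : Perm (β × ZMod 2) := swap (a, 1) (b, 0) * swap (k, 0) (k, 1) with hg
      set g' : Perm (β × ZMod 2) := swap (a, 1) (b, 1) * swap (k, 0) (k, 1) with hg'
      have e1 : g * tau (fun _ => 1) = blk u (swap a b) * g := by
        apply Equiv.ext; rintro ⟨x, y⟩
        rcases eq_or_ne x a with hxa | hxa <;> rcases eq_or_ne x b with hxb | hxb <;>
          rcases eq_or_ne x k with hxk | hxk <;> rcases h01 y with rfl | rfl <;>
          simp_all [Perm.mul_apply, swap_apply_def, hab.symm, hka.symm, hkb.symm, ZModModule.add_self]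
      set w : β → ZMod 2 := fun x => if x = a ∨ x = b then 1 else 0 with hw
      have e2 : g' * blk w (swap a b) = tau w * g' := by
        apply Equiv.ext; rintro ⟨x, y⟩
        rcases eq_or_ne x a with hxa | hxa <;> rcases eq_or_ne x b with hxb | hxb <;>
          rcases eq_or_ne x k with hxk | hxk <;> rcases h01 y with rfl | rfl <;>
          simp_all [Perm.mul_apply, swap_apply_def, hab.symm, hka.symm, hkb.symm, ZModModule.add_self]
      have hs : Perm.sign g = 1 := by
        rw [hg, map_mul, Perm.sign_swap (by simp), Perm.sign_swap hk1]; simp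
      have hs' : Perm.sign g' = 1 := by
        rw [hg', map_mul, Perm.sign_swap (by simp [hab]), Perm.sign_swap hk1]; simp
      have h1 : blk u (swap a b) ∈ U := by
        rw [← mul_inv_eq_iff_eq_mul.2 e1]
        refine hU.fus _ hv _ hs ?_
        rw [mul_inv_eq_iff_eq_mul.2 e1]
        exact blk_mem_wreathBy.2 hsw
      have h2 : blk w (swap a b) ∈ U := by
        have h := U.mul_mem h1 hv
        rw [blk_mul, mul_one] at h
        convert h using 2
        funext x
        by_cases hx : x = a ∨ x = b <;> simp [hu, hw, hx, ZModModule.add_self]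
      refine ⟨a, b, hab, ?_⟩
      have h3' := hU.fus _ h2 _ hs' (by
        rw [mul_inv_eq_iff_eq_mul.2 e2]
        exact blk_mem_wreathBy.2 W.one_mem)
      rw [mul_inv_eq_iff_eq_mul.2 e2] at h3'
      convert (show w ∈ base U from h3') using 1
      funext x
      rcases eq_or_ne x a with hxa | hxa <;> rcases eq_or_ne x b with hxb | hxb <;>
        simp_all [hw]
  obtain ⟨a, b, hab, hwt⟩ := hw
  have hsq : ∀ π : Perm β, Perm.sign π ^ 2 = 1 := fun π => Int.units_sq _
  have hpair : ∀ c d : β, c ≠ d → (Pi.single c 1 + Pi.single d 1 : β → ZMod 2) ∈ base U := by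
    intro c d hcd
    set π : Perm β := swap (swap a c b) d * swap a c
    have hπa : π a = c := by
      have : c ≠ swap a c b := fun h => hab ((swap a c).injective (by rwa [swap_apply_left]))
      simp [π, swap_apply_of_ne_of_ne this hcd]
    have hπb : π b = d := by simp [π]
    have h := hU.perm_mem_base hwt π (hsq π)
    convert h using 1
    funext x
    have e : ∀ i, π.symm x = i ↔ x = π i := fun i => symm_apply_eq π
    simp [Pi.single_apply, e, hπa, hπb]
  obtain ⟨l, -, -⟩ := exists_third h3 a a
  have hsum : (∑ c ∈ K, (Pi.single c 1 + Pi.single l 1 : β → ZMod 2)) ∈ base U :=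
    AddSubgroup.sum_mem _ fun c _ => by
      rcases eq_or_ne c l with rfl | hcl
      · rw [show (Pi.single c 1 + Pi.single c 1 : β → ZMod 2) = 0 from
          funext fun x => by simp [ZModModule.add_self]]
        exact zero_mem _
      · exact hpair c l hcl
  convert hsum using 1
  funext x
  obtain ⟨r, hr⟩ := hK
  rw [Finset.sum_add_distrib, Finset.sum_const, hr, Pi.add_apply, Finset.sum_apply, Pi.smul_apply,
    add_smul, ZModModule.add_self, add_zero]
  simp [Pi.single_apply]

/-- The main statement: all elements of order `p` lie in `U`. -/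
theorem mem_of_pow_eq_one (hU : Closed W U) (hUW : U ≤ wreathBy W)
    (hve : ∀ y ∈ U, Perm.sign y = 1) (h3 : 3 ≤ Fintype.card β)
    {j : ZMod p ↪ β} (hj : ∀ x, shiftOn j x ∈ W)
    {z : Perm (β × ZMod p)} (hz : z ∈ U) (hz1 : z ≠ 1)
    (hcent : ∀ y ∈ wreathBy W, Perm.sign y = 1 → z * y = y * z)
    {y : Perm (β × ZMod p)} (hy : y ∈ wreathBy W) (hye : Perm.sign y = 1) (hyp : y ^ p = 1) :
    y ∈ U := by
  classical
  have hp := (Fact.out : p.Prime)
  obtain ⟨v, hv, hv0⟩ := exists_base_ne_zero hUW h3 hz hz1 hcent
  have hct : ∀ k ∈ y.cycleType, k = p := fun k hk => by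
    rcases (Nat.dvd_prime hp).1
      ((Perm.dvd_of_mem_cycleType hk).trans (orderOf_dvd_of_pow_eq_one hyp)) with rfl | rfl
    · exact absurd (Perm.two_le_of_mem_cycleType hk) (by norm_num)
    · rfl
  have hrep := Multiset.eq_replicate_card.2 hct
  have hle : Multiset.card y.cycleType ≤ Fintype.card β := by
    have h1 := y.sum_cycleType
    rw [hrep, Multiset.sum_replicate, smul_eq_mul] at h1
    have h2 := Finset.card_le_univ y.support
    rw [Fintype.card_prod, ZMod.card, ← h1] at h2
    exact Nat.le_of_mul_le_mul_right h2 hp.pos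
  obtain ⟨K, -, hK⟩ := Finset.exists_subset_card_eq
    (s := (Finset.univ : Finset β)) (n := Multiset.card y.cycleType) (by rwa [Finset.card_univ])
  set w : β → ZMod p := fun i => if i ∈ K then (1 : ZMod p) else 0 with hw
  obtain ⟨g, hg⟩ := isConj_iff.1 (Perm.isConj_iff_cycleType_eq.2
    (show (tau w).cycleType = y.cycleType by rw [cycleType_tau, hK, ← hrep]))
  have hwe : Perm.sign (tau w) = 1 := by
    have := congrArg Perm.sign hg
    simpa [mul_comm (Perm.sign g), mul_assoc, hye] using this
  have hwU : tau w ∈ U := by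
    by_cases h2 : p = 2
    · refine hU.even_mem_of_two h2 h3 hj hv hv0 hve K ?_
      have h := hwe
      subst h2
      rw [Perm.sign_of_cycleType, cycleType_tau, Multiset.sum_replicate, Multiset.card_replicate,
        smul_eq_mul, neg_one_pow_eq_one_iff_even (by decide)] at h
      rcases Nat.even_or_odd K.card with he | ho
      · exact he
      · exfalso
        rw [Nat.even_iff] at h
        rw [Nat.odd_iff] at ho
        omega
    · exact hU.single_mem_of_odd h2 h3 hv hv0 w
  rcases Int.units_eq_one_or (Perm.sign g) with hs | hs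
  · rw [← hg]; exact hU.fus _ hwU g hs (hg ▸ hy)
  · obtain ⟨c, hc, hcs⟩ : ∃ c, c * tau w = tau w * c ∧ Perm.sign c = -1 := by
      by_cases h2 : p = 2
      · subst h2
        obtain ⟨i, -, -⟩ := exists_third h3 (j 0) (j 0)
        refine ⟨tau (Pi.single i 1), by rw [tau_mul, tau_mul, add_comm], ?_⟩
        rw [sign_tau, Finset.prod_eq_single i]
        · simp only [Pi.single_eq_same]; exact sign_addRight_two
        · intro b _ hb; simp [Pi.single_eq_of_ne hb]
        · simp
      · obtain ⟨a, b, hab, hwab⟩ : ∃ a b, a ≠ b ∧ w a = w b := by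
          obtain ⟨a, -, -⟩ := exists_third h3 (j 0) (j 0)
          obtain ⟨b, hb, -⟩ := exists_third h3 a a
          obtain ⟨c, hca, hcb⟩ := exists_third h3 a b
          by_cases h1 : w a = w b
          · exact ⟨a, b, hb.symm, h1⟩
          by_cases h4 : w a = w c
          · exact ⟨a, c, hca.symm, h4⟩
          refine ⟨b, c, hcb.symm, ?_⟩
          simp only [hw] at h1 h4 ⊢
          by_cases ha : a ∈ K <;> by_cases hb' : b ∈ K <;> by_cases hc' : c ∈ K <;>
            simp [ha, hb', hc'] at h1 h4 ⊢
        refine ⟨blk 0 (swap a b), ?_, ?_⟩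
        · rw [blk_mul, blk_mul, one_mul, mul_one]
          congr 1
          funext x
          rcases eq_or_ne x a with rfl | hxa
          · simp [hwab]
          rcases eq_or_ne x b with rfl | hxb
          · simp [hwab]
          · simp [swap_apply_of_ne_of_ne hxa hxb]
        · rw [sign_blk_zero, Perm.sign_swap hab, (hp.odd_of_ne_two h2).neg_one_pow]
    have he : g * c * tau w * (g * c)⁻¹ = y := by
      rw [mul_assoc g c, hc, ← hg]; group
    rw [← he]
    exact hU.fus _ hwU _ (by rw [map_mul, hs, hcs]; simp) (he ▸ hy)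

end Closed

end CfsgLib.AltFusion
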