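import Cfsg.Agent.Lib.FusionExamples.NormalSubsystem
import Cfsg.Agent.Lib.FusionExamples.CentricExtension

/-!
A simplicity criterion for the fusion system of a finite group: the normalizer of the Sylow
subgroup is obtained from automizers of centric subgroups.
-/

set_option autoImplicit false
set_option linter.unusedSectionVars false

namespace CfsgLib.AltFusion

open Cfsg Cfsg.FusionSystem CfsgLib.Alperin CfsgLib.FusionExamples

variable {G : Type*} [Group G] [Finite G] {p : ℕ} [Fact p.Prime]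

/-- What is known about the elements inducing maps of a normal subsystem on the subgroups of `S`. -/
structure Inducers (S : Sylow p G) where
  grp : ∀ R : Subgroup G, R ≤ (S : Subgroup G) → Subgroup G
  inner : ∀ (R : Subgroup G) (hR : R ≤ (S : Subgroup G)) (s : G), s ∈ (S : Subgroup G) →
    (∀ y ∈ R, s * y * s⁻¹ ∈ R) → s ∈ grp R hR
  conj : ∀ (R : Subgroup G) (hR : R ≤ (S : Subgroup G)) (x e : G),
    (∀ y ∈ R, x * y * x⁻¹ ∈ R) → e ∈ grp R hR → x * e * x⁻¹ ∈ grp R hR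
  up : ∀ (Q R : Subgroup G) (hQR : Q ≤ R) (hR : R ≤ (S : Subgroup G)) (x : G),
    (∀ g : G, (∀ y ∈ Q, g * y = y * g) → g ∈ Q) → (∀ y ∈ R, x * y * x⁻¹ ∈ R) →
      x ∈ grp Q (hQR.trans hR) → x ∈ grp R hR
  down : ∀ (Q R : Subgroup G) (hQR : Q ≤ R) (hR : R ≤ (S : Subgroup G)) (x : G),
    (∀ y ∈ Q, x * y * x⁻¹ ∈ Q) → x ∈ grp R hR → x ∈ grp Q (hQR.trans hR)

theorem isCentric_of_selfCentralizing (S : Sylow p G) {Q : Subgroup G} (hQ : Q ≤ (S : Subgroup G))
    (hC : ∀ g : G, (∀ y ∈ Q, g * y = y * g) → g ∈ Q) :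
    (groupFusionSystem (S : Subgroup G)).IsCentric Q := by
  refine ⟨hQ, fun R hR c hc => ?_⟩
  obtain ⟨-, -, g, hg⟩ := FusionBasics.group_isConj.mp hR
  subst hg
  have hc2 : ∀ y ∈ Q, g * y * g⁻¹ * c = c * (g * y * g⁻¹) := fun y hy =>
    hc.2 _ ⟨y, hy, rfl⟩
  refine ⟨g⁻¹ * c * g, hC _ fun y hy => ?_, by simp [mul_assoc]⟩
  calc g⁻¹ * c * g * y = g⁻¹ * (c * (g * y * g⁻¹)) * g := by group
    _ = g⁻¹ * (g * y * g⁻¹ * c) * g := by rw [hc2 y hy]
    _ = y * (g⁻¹ * c * g) := by group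

/-- The group fusion system is simple when every strongly closed subgroup is trivial and every
element of the Sylow normalizer must induce a map of each normal subsystem. -/
theorem isSimple_of_inducers (S : Sylow p G) (hne : (S : Subgroup G) ≠ ⊥)
    (hsc : ∀ T, (groupFusionSystem (S : Subgroup G)).StronglyClosed T → T = ⊥ ∨ T = (S : Subgroup G))
    (hkey : ∀ I : Inducers S,
      Subgroup.normalizer ((S : Subgroup G) : Set G) ≤ I.grp (S : Subgroup G) le_rfl) :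
    (groupFusionSystem (S : Subgroup G)).IsSimple p := by
  classical
  set F := groupFusionSystem (S : Subgroup G) with hFd
  refine ⟨FusionBasics.group_isSaturated S, hne, fun T E hE => ?_⟩
  obtain ⟨⟨hEsat, hFsat, hsub, hTsc, hinvar, hfr⟩, -⟩ := hE
  rcases hsc T hTsc with hT | hT
  · exact Or.inl hT
  subst hT
  refine Or.inr ⟨rfl, fun Q => Set.Subset.antisymm (hsub Q) ?_⟩
  set NS := Subgroup.normalizer ((S : Subgroup G) : Set G)
  have haut : ∀ α ∈ F.autGroup (S : Subgroup G), ∃ h ∈ NS, ∀ x : (S : Subgroup G),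
      ((α x : (S : Subgroup G)) : G) = h * x * h⁻¹ := by
    intro α hα
    obtain ⟨-, -, h, hh⟩ := (mem_autGroup_iff F le_rfl).mp hα
    refine ⟨h, ?_, fun x => hh x⟩
    refine Subgroup.mem_normalizer_iff_map_conj_eq.mpr (Subgroup.eq_of_le_of_card_ge ?_ ?_)
    · rintro _ ⟨x, hx, rfl⟩
      have h1 : ((α ⟨x, hx⟩ : (S : Subgroup G)) : G) = h * x * h⁻¹ := hh ⟨x, hx⟩
      show h * x * h⁻¹ ∈ (S : Subgroup G)
      rw [← h1]
      exact (α ⟨x, hx⟩).2
    · rw [Subgroup.card_map_of_injective (MulEquiv.injective _)]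
  let I : Inducers S :=
    { grp := fun R hR => NormalSubsystem.inducing E R hR
      inner := fun R hR s hs hn => ⟨hn, E.conj_mem hR hs⟩
      down := fun Q R hQR hR x hn hx => ⟨hn, restrict_mem_apply hx.2 hQR fun _ => rfl⟩
      up := fun Q R hQR hR x hC hn hx => ⟨hn, mem_of_restrict_centric (S := (S : Subgroup G)) S.2
        hFsat hEsat hsub hQR (isCentric_of_selfCentralizing S (hQR.trans hR) hC)
        (FusionBasics.conjHom_mem_group x hR fun y hy => hR (hn y hy))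
        (mem_of_apply_eq hx.2 fun _ => rfl)⟩
      conj := ?_ }
  swap
  · intro R hR x e hn he
    have hninv : ∀ y ∈ R, x⁻¹ * y * x ∈ R := fun y hy => by
      have := (inv_mem (s := NormalSubsystem.inducing F R hR)
        (show x ∈ NormalSubsystem.inducing F R hR from
          ⟨hn, FusionBasics.conjHom_mem_group x hR fun y hy => hR (hn y hy)⟩)).1 y hy
      simpa using this
    obtain ⟨α, hα, φ₀, hφ₀, heq⟩ := hfr R hR (conjHom R x)
      (FusionBasics.conjHom_mem_group x hR fun y hy => hR (hn y hy))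
    obtain ⟨h, hh, hhx⟩ := haut α hα
    have hmem : ∀ y : R, φ₀ y ∈ (S : Subgroup G) := fun y => (E.le_of_mem hφ₀).2 y
    have h1 : ∀ y : R, φ₀ y = h⁻¹ * x * (y : G) * (h⁻¹ * x)⁻¹ := fun y => by
      have := heq y (hmem y)
      rw [hhx] at this
      change x * (y : G) * x⁻¹ = h * φ₀ y * h⁻¹ at this
      calc φ₀ y = h⁻¹ * (h * φ₀ y * h⁻¹) * h := by group
        _ = _ := by rw [← this]; group
    obtain ⟨ψ, hψ, hψr, hψ1, -⟩ := exists_inverse hφ₀ rfl
    have hψR : ∀ z : φ₀.range, ψ z ∈ R := fun z => hψr.le ⟨z, rfl⟩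
    have hc1 := E.comp_mem hψ he.2 hψR
    set c1 := (conjHom R e).comp (ψ.codRestrict R hψR) with hc1d
    have hc1R : ∀ z, c1 z ∈ R := fun z => he.1 _ (hψR z)
    have hc2 := E.comp_mem hc1 hφ₀ hc1R
    set χ := φ₀.comp (c1.codRestrict R hc1R) with hχd
    have hR' : φ₀.range ≤ (S : Subgroup G) := by rintro _ ⟨z, rfl⟩; exact hmem z
    obtain ⟨χ', hχ', hχx⟩ := hinvar φ₀.range hR' χ hc2 α hα
    have hy0 : ∀ y ∈ R, h⁻¹ * y * h ∈ φ₀.range := fun y hy =>
      ⟨⟨x⁻¹ * y * x, hninv y hy⟩, by rw [h1]; group⟩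
    have hRm : ∀ y ∈ R, y ∈ (φ₀.range.subgroupOf (S : Subgroup G)).map
        ((S : Subgroup G).subtype.comp α.toMonoidHom) := fun y hy =>
      ⟨⟨h⁻¹ * y * h, hR' (hy0 y hy)⟩, hy0 y hy, by
        show ((α ⟨h⁻¹ * y * h, _⟩ : (S : Subgroup G)) : G) = y
        rw [hhx]; group⟩
    refine ⟨fun y hy => ?_, restrict_mem_apply hχ' hRm fun y => ?_⟩
    · have := hn _ (he.1 _ (hninv y hy))
      simpa [mul_assoc] using this
    · set z : φ₀.range := ⟨h⁻¹ * (y : G) * h, hy0 y y.2⟩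
      have hz : ψ z = x⁻¹ * (y : G) * x := by
        have h3 := hψ1 ⟨x⁻¹ * (y : G) * x, hninv y y.2⟩ ⟨_, rfl⟩
        refine Eq.trans (congrArg ψ (Subtype.ext ?_)) h3
        show h⁻¹ * (y : G) * h = φ₀ ⟨x⁻¹ * (y : G) * x, _⟩
        rw [h1]; group
      have hS : χ z ∈ (S : Subgroup G) := (E.le_of_mem hc2).2 z
      have ha : ((α ⟨(z : G), hR' z.2⟩ : (S : Subgroup G)) : G) = (y : G) := by
        rw [hhx]; show h * (h⁻¹ * (y : G) * h) * h⁻¹ = y; group
      have h4 := hχx z hS (by rw [ha]; exact hRm _ y.2)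
      refine Eq.trans ?_ (h4.symm.trans (congrArg χ' (Subtype.ext ha)))
      rw [hhx]
      show x * e * x⁻¹ * (y : G) * (x * e * x⁻¹)⁻¹ = h * φ₀ ⟨e * ψ z * e⁻¹, _⟩ * h⁻¹
      rw [h1]
      simp only [hz]
      group
  intro φ hφ
  obtain ⟨α, hα, φ₀, hφ₀, heq⟩ := hfr Q (F.le_of_mem hφ).1 φ hφ
  obtain ⟨h, hh, hhx⟩ := haut α hα
  have hmem : ∀ y : Q, φ₀ y ∈ (S : Subgroup G) := fun y => (E.le_of_mem hφ₀).2 y
  exact comp_mem_apply hφ₀ (hkey I hh).2 hmem fun y => (heq y (hmem y)).trans (hhx _)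

end CfsgLib.AltFusion
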