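import Cfsg.Agent.Lib.AltFusion.Parity

/-!
Linear maps of the plane on a block of `p` blocks.
-/

set_option autoImplicit false
set_option linter.unusedSectionVars false

namespace CfsgLib.AltFusion

open Equiv

variable {p : ℕ} [Fact p.Prime] {β : Type*} [Fintype β] [DecidableEq β]

/-- The embedding of the plane. -/
def lineEmb (j : ZMod p ↪ β) : ZMod p × ZMod p ↪ β × ZMod p :=
  j.prodMap (Function.Embedding.refl _)

@[simp] theorem lineEmb_apply (j : ZMod p ↪ β) (z : ZMod p × ZMod p) :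
    lineEmb j z = (j z.1, z.2) := rfl

/-- A permutation of the plane acting on the blocks in the range of `j`. -/
noncomputable def onPlane (j : ZMod p ↪ β) : Perm (ZMod p × ZMod p) →* Perm (β × ZMod p) :=
  Perm.viaEmbeddingHom (lineEmb j)

theorem onPlane_apply (j : ZMod p ↪ β) (f : Perm (ZMod p × ZMod p)) (x a : ZMod p) :
    onPlane j f (j x, a) = (j (f (x, a)).1, (f (x, a)).2) :=
  Perm.viaEmbedding_apply f (lineEmb j) (x, a)

theorem onPlane_apply_of_notMem (j : ZMod p ↪ β) (f : Perm (ZMod p × ZMod p)) {i : β}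
    (hi : i ∉ Set.range j) (a : ZMod p) : onPlane j f (i, a) = (i, a) :=
  Perm.viaEmbedding_apply_of_notMem f (lineEmb j) _ (by
    rintro ⟨⟨x, b⟩, h⟩
    exact hi ⟨x, congrArg Prod.fst h⟩)

theorem sign_onPlane (j : ZMod p ↪ β) (f : Perm (ZMod p × ZMod p)) :
    Perm.sign (onPlane j f) = Perm.sign f := by
  classical
  exact @Equiv.Perm.sign_extendDomain _ _ _ _ _ _ f _ (fun a => Classical.propDecidable _) _

/-- `(x, a) ↦ (x, a + s x)`. -/
def upT (s : ZMod p) : Perm (ZMod p × ZMod p) where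
  toFun z := (z.1, z.2 + s * z.1)
  invFun z := (z.1, z.2 - s * z.1)
  left_inv z := by simp
  right_inv z := by simp

/-- `(x, a) ↦ (x + s a, a)`. -/
def lowT (s : ZMod p) : Perm (ZMod p × ZMod p) where
  toFun z := (z.1 + s * z.2, z.2)
  invFun z := (z.1 - s * z.2, z.2)
  left_inv z := by simp
  right_inv z := by simp

/-- `(x, a) ↦ (t⁻¹ x, t a)`. -/
def diagT (t : (ZMod p)ˣ) : Perm (ZMod p × ZMod p) where
  toFun z := ((↑t⁻¹ : ZMod p) * z.1, (t : ZMod p) * z.2)
  invFun z := ((t : ZMod p) * z.1, (↑t⁻¹ : ZMod p) * z.2)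
  left_inv z := Prod.ext (Units.mul_inv_cancel_left _ _) (Units.inv_mul_cancel_left _ _)
  right_inv z := Prod.ext (Units.inv_mul_cancel_left _ _) (Units.mul_inv_cancel_left _ _)

/-- Additivity. -/
def Additive' (f : Perm (ZMod p × ZMod p)) : Prop := ∀ z w, f (z + w) = f z + f w

theorem additive_upT (s : ZMod p) : Additive' (upT s) := fun z w => by
  simp only [upT, Equiv.coe_fn_mk, Prod.fst_add, Prod.snd_add, Prod.mk_add_mk, Prod.mk.injEq]
  exact ⟨trivial, by ring⟩

theorem additive_lowT (s : ZMod p) : Additive' (lowT s) := fun z w => by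
  simp only [lowT, Equiv.coe_fn_mk, Prod.fst_add, Prod.snd_add, Prod.mk_add_mk, Prod.mk.injEq]
  exact ⟨by ring, trivial⟩

theorem additive_diagT (t : (ZMod p)ˣ) : Additive' (diagT t) := fun z w => by
  simp only [diagT, Equiv.coe_fn_mk, Prod.fst_add, Prod.snd_add, Prod.mk_add_mk, mul_add]

theorem additive_mul {f g : Perm (ZMod p × ZMod p)} (hf : Additive' f) (hg : Additive' g) :
    Additive' (f * g) := fun z w => by
  show f (g (z + w)) = f (g z) + f (g w)
  rw [hg, hf]

theorem lowT_pow (s : ZMod p) (k : ℕ) : lowT s ^ k = lowT ((k : ZMod p) * s) := by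
  induction k with
  | zero => rw [pow_zero]; exact Equiv.ext fun z => by simp [lowT]
  | succ k ih =>
    rw [pow_succ, ih]
    exact Equiv.ext fun z => by
      simp only [lowT, Perm.mul_apply, Equiv.coe_fn_mk, Nat.cast_succ, Prod.mk.injEq, and_true]
      ring

theorem sign_lowT (hp : p ≠ 2) (s : ZMod p) : Perm.sign (lowT s) = 1 :=
  sign_eq_one_of_pow_odd hp (by
    rw [lowT_pow, ZMod.natCast_self, zero_mul]
    exact Equiv.ext fun z => by simp [lowT])

theorem onPlane_upT (j : ZMod p ↪ β) (s : ZMod p) :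
    onPlane j (upT s) = tau (Function.extend j (fun x => s * x) 0) := by
  apply Equiv.ext; rintro ⟨i, a⟩
  by_cases hi : i ∈ Set.range j
  · obtain ⟨x, rfl⟩ := hi
    rw [onPlane_apply]
    simp [upT, j.injective.extend_apply]
  · rw [onPlane_apply_of_notMem j _ hi]
    simp [Function.extend_apply' _ _ _ (show ¬ ∃ x, j x = i from hi)]

theorem sign_upT (hp : p ≠ 2) (j : ZMod p ↪ β) (s : ZMod p) :
    Perm.sign (onPlane j (upT s)) = 1 := by
  rw [onPlane_upT]; exact sign_tau_of_odd hp _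

/-- The Weyl element. -/
def weylT (s : (ZMod p)ˣ) : Perm (ZMod p × ZMod p) :=
  upT (s : ZMod p) * lowT (-(↑s⁻¹ : ZMod p)) * upT (s : ZMod p)

theorem weylT_apply (s : (ZMod p)ˣ) (x a : ZMod p) :
    weylT s (x, a) = (-(↑s⁻¹ * a), (s : ZMod p) * x) := by
  have h : (↑s⁻¹ : ZMod p) * (s : ZMod p) = 1 := s.inv_mul
  simp only [weylT, upT, lowT, Perm.mul_apply, Equiv.coe_fn_mk, Prod.mk.injEq]
  constructor
  · linear_combination -x * h
  · linear_combination (-(s : ZMod p) * x - a) * h

theorem additive_weylT (s : (ZMod p)ˣ) : Additive' (weylT s) :=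
  additive_mul (additive_mul (additive_upT _) (additive_lowT _)) (additive_upT _)

theorem lowT_eq_conj (s : ZMod p) : weylT 1 * upT (-s) = lowT s * weylT (1 : (ZMod p)ˣ) := by
  apply Equiv.ext; rintro ⟨x, a⟩
  simp only [Perm.mul_apply]
  rw [weylT_apply]
  simp only [upT, lowT, Equiv.coe_fn_mk]
  rw [weylT_apply]
  simp [add_comm]

theorem diagT_eq (t : (ZMod p)ˣ) : diagT t * weylT 1 = weylT t := by
  apply Equiv.ext; rintro ⟨x, a⟩
  simp only [Perm.mul_apply]
  rw [weylT_apply, weylT_apply]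
  simp only [diagT, Equiv.coe_fn_mk, inv_one, Units.val_one, one_mul, mul_neg]

end CfsgLib.AltFusion
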