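import Cfsg.Agent.Lib.AltFusion.Monomial
import Cfsg.Agent.Lib.AltFusion.Closed
import Cfsg.Agent.Lib.OutAut.SymSylow
import Cfsg.Agent.Lib.FusionSub.Puig
import Cfsg.Agent.Lib.TwoGroups.NormalAbelian

/-!
The fusion system of an alternating group is simple.
-/

set_option autoImplicit false
set_option linter.unusedSectionVars false

namespace CfsgLib.AltFusion

open Equiv Cfsg Cfsg.FusionSystem

variable {p : ℕ} [Fact p.Prime] {β : Type*} [Fintype β] [DecidableEq β] {n : ℕ}

theorem lift_wreath_conj {e : β × ZMod p ↪ Fin n} {W : Subgroup (Perm β)}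
    {y : Perm (β × ZMod p)} {h : alternatingGroup (Fin n)} (hy : y ∈ wreathBy W)
    (hys : Perm.sign y = 1) (hh : h ∈ Subgroup.normalizer (model W e : Set _)) :
    ∃ y' ∈ wreathBy W, (h : Perm (Fin n)) * iota e y = iota e y' * (h : Perm (Fin n)) := by
  obtain ⟨y', hy', he⟩ := mem_lift.1
    ((Subgroup.mem_normalizer_iff.1 hh (toAlt e y hys)).1 (toAlt_mem_lift hys hy))
  refine ⟨y', hy', ?_⟩
  rw [he]
  simp [toAlt]

theorem two_le_of_perm_ne {α : Type*} {π : Perm α} {i : α} (h : π i ≠ i) : π (π i) ≠ π i :=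
  fun h' => h (π.injective h')

/-- For odd `p`, the Sylow normalizer induces maps of every normal subsystem. -/
theorem normalizer_le_of_odd (hp : p ≠ 2) {e : β × ZMod p ↪ Fin n}
    {S : Sylow p (alternatingGroup (Fin n))} {W : Subgroup (Perm β)}
    (hS : (S : Subgroup (alternatingGroup (Fin n))) = model W e) (hWp : IsPGroup p W)
    (hfix : ∀ y z : Fin n, y ∉ Set.range e → z ∉ Set.range e → y = z)
    (h3 : 3 ≤ Fintype.card β) (h5 : 5 ≤ p → 5 ≤ Fintype.card β)
    {j : ZMod p ↪ β} (hj : ∀ x, shiftOn j x ∈ W) (I : Inducers S) :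
    Subgroup.normalizer ((S : Subgroup (alternatingGroup (Fin n))) : Set _)
      ≤ I.grp (S : Subgroup (alternatingGroup (Fin n))) le_rfl := by
  classical
  intro h hh
  have hh' : h ∈ Subgroup.normalizer (model W e : Set (alternatingGroup (Fin n))) := by rwa [← hS]
  have hev : ∀ y ∈ wreathBy (p := p) W, Perm.sign y = 1 := fun y hy =>
    sign_eq_one_of_mem_wreathBy hp hWp hy
  -- conjugates of the block cycles are base elements
  have hcyc : ∀ i : β, ∃ w : β → ZMod p,
      (h : Perm (Fin n)) * iota e (tau (Pi.single i 1)) = iota e (tau w) * (h : Perm (Fin n)) := by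
    intro i
    have hm : tau (Pi.single i (1 : ZMod p)) ∈ wreathBy W := blk_mem_wreathBy.2 W.one_mem
    obtain ⟨y', hy', he⟩ := lift_wreath_conj hm (hev _ hm) hh'
    obtain ⟨v, σ, hσ, rfl⟩ := hy'
    refine ⟨v, ?_⟩
    suffices hσ1 : σ = 1 by rw [hσ1] at he; exact he
    by_contra hne
    obtain ⟨b, hb⟩ : ∃ b, σ b ≠ b := by
      by_contra hall
      push Not at hall
      exact hne (Equiv.ext hall)
    have hcard : (blk v σ).support.card = (tau (Pi.single i (1 : ZMod p))).support.card := by
      have h1 : (iota e (blk v σ)).support.card = (iota e (tau (Pi.single i (1 : ZMod p)))).support.card := by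
        rw [← mul_inv_eq_iff_eq_mul.2 he, Perm.card_support_conj]
      simpa [Perm.viaEmbeddingHom_apply, Perm.viaEmbedding, Perm.card_support_extend_domain] using h1
    have hsub : ({b, σ b} : Finset β) ×ˢ (Finset.univ : Finset (ZMod p)) ⊆ (blk v σ).support := by
      rintro ⟨x, a⟩ hx
      simp only [Finset.mem_product, Finset.mem_insert, Finset.mem_singleton, Finset.mem_univ,
        and_true] at hx
      rw [Perm.mem_support, aff_apply]
      intro hc
      rcases hx with rfl | rfl
      · exact hb (congrArg Prod.fst hc)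
      · exact two_le_of_perm_ne hb (congrArg Prod.fst hc)
    have h2 : (tau (Pi.single i (1 : ZMod p))).support ⊆ ({i} : Finset β) ×ˢ (Finset.univ : Finset (ZMod p)) := by
      rintro ⟨x, a⟩ hx
      simp only [Finset.mem_product, Finset.mem_singleton, Finset.mem_univ, and_true]
      by_contra hxi
      rw [Perm.mem_support, aff_apply] at hx
      exact hx (by simp [Pi.single_eq_of_ne hxi])
    have h4 := Finset.card_le_card hsub
    have h6 := Finset.card_le_card h2
    rw [Finset.card_product, Finset.card_pair hb.symm, Finset.card_univ, ZMod.card, hcard] at h4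
    rw [Finset.card_product, Finset.card_singleton, Finset.card_univ, ZMod.card] at h6
    have := (Fact.out : p.Prime).pos
    omega
  choose w hw using hcyc
  -- `h` comes from the product
  obtain ⟨g, hg⟩ := exists_small e hfix (h := (h : Perm (Fin n))) fun x =>
    mem_range_of_moved (g := tau (Pi.single x.1 (1 : ZMod p))) (g' := tau (w x.1))
      (fun hc => by simpa using congrArg Prod.snd hc) (hw x.1)
  have hgs : Perm.sign g = 1 := by
    rw [← sign_iota e, ← hg]; exact Perm.mem_alternatingGroup.1 h.2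
  have hg' : toAlt e g hgs = h := Subtype.ext hg.symm
  have hgw : ∀ i, g * tau (Pi.single i (1 : ZMod p)) = tau (w i) * g := fun i => iota_inj e (by
    rw [map_mul, map_mul, ← hg]; exact hw i)
  -- `g` is monomial
  set f : β → β := fun i => (g (i, 0)).1 with hf
  have hblock : ∀ i a, g (i, a) = (f i, a * w i (f i) + (g (i, 0)).2) := by
    intro i
    have hk : ∀ k : ℕ, g (i, (k : ZMod p)) = (f i, (k : ZMod p) * w i (f i) + (g (i, 0)).2) := by
      intro k
      induction k with
      | zero => simp [hf]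
      | succ k ih =>
        have h1 := DFunLike.congr_fun (hgw i) (i, (k : ZMod p))
        simp only [Perm.mul_apply, aff_apply, Perm.one_apply, Units.val_one, one_mul,
          Pi.single_eq_same, ih] at h1
        rw [Nat.cast_succ, h1]
        exact Prod.ext rfl (by ring)
    intro a
    have := hk (ZMod.val a)
    rwa [ZMod.natCast_zmod_val] at this
  have hw0 : ∀ i, w i (f i) ≠ 0 := fun i h0 => by
    have h1 := hblock i 1
    rw [h0, mul_zero, zero_add] at h1
    exact one_ne_zero (congrArg Prod.snd (g.injective (h1.trans (Prod.ext rfl rfl : (f i, (g (i, 0)).2) = g (i, 0)))))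
  have hinj : Function.Injective f := fun i k hik => by
    set a := ((g (k, 0)).2 - (g (i, 0)).2) * (w i (f i))⁻¹
    have h1 := hblock i a
    rw [show a * w i (f i) = (g (k, 0)).2 - (g (i, 0)).2 by
      simp only [a]; rw [mul_assoc, inv_mul_cancel₀ (hw0 i), mul_one], sub_add_cancel, hik] at h1
    exact congrArg Prod.fst (g.injective (h1.trans (Prod.ext rfl rfl : (f k, (g (k, 0)).2) = g (k, 0))))
  set π : Perm β := Equiv.ofBijective f (Finite.injective_iff_bijective.1 hinj) with hπ
  set c : β → (ZMod p)ˣ := fun i => Units.mk0 _ (hw0 i)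
  have hga : g = aff c (fun i => (g (i, 0)).2) π := Equiv.ext fun ⟨i, a⟩ => by
    rw [hblock, aff_apply]
    exact Prod.ext rfl (by show _ = w i (f i) * a + (g (i, 0)).2; ring)
  set u : β → ZMod p := fun i => (g (π.symm i, 0)).2
  have hdec : g = tau u * aff c (0 : β → ZMod p) π := hga.trans (aff_eq_tau_mul _ _ _)
  have hu : tau u ∈ wreathBy W := blk_mem_wreathBy.2 W.one_mem
  have ham : aff c (0 : β → ZMod p) π = (tau u)⁻¹ * g := by rw [hdec]; group
  have hnorm : ∀ y ∈ wreathBy W, g * y * g⁻¹ ∈ wreathBy W := fun y hy => by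
    obtain ⟨y', hy', he⟩ := lift_wreath_conj hy (hev _ hy) hh'
    rw [hg, ← map_mul, ← map_mul] at he
    rw [mul_inv_eq_iff_eq_mul.2 (iota_inj e he)]
    exact hy'
  have hmono : aff c (0 : β → ZMod p) π ∈ small I (wreathBy W) (lift_le hS le_rfl) := by
    have hs : Perm.sign (aff c (0 : β → ZMod p) π) = 1 := by
      rw [ham, map_mul, map_inv, hev _ hu, hgs]; simp
    refine small_up ?_ (lift_le hS le_rfl)
      (lift_selfCentralizing e hfix (fun q hq => hev q ?_) bot_move fun g hg => bot_centralizing hg)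
      ?_ (monomial_mem I hS hp hWp hfix h3 h5 hj hs)
    · rintro _ ⟨v, σ, hσ, rfl⟩
      exact blk_mem_wreathBy.2 (Subgroup.mem_bot.1 hσ ▸ W.one_mem)
    · obtain ⟨v, σ, hσ, rfl⟩ := hq
      exact blk_mem_wreathBy.2 (Subgroup.mem_bot.1 hσ ▸ W.one_mem)
    · intro y hy
      rw [ham, mul_inv_rev, inv_inv]
      have := mul_mem (mul_mem (inv_mem hu) (hnorm y hy)) hu
      simpa [mul_assoc] using this
  have hgmem : g ∈ small I (wreathBy W) (lift_le hS le_rfl) := by
    rw [hdec]
    exact mul_mem (small_inner hS _ hu (hev _ hu)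
      fun y hy => mul_mem (mul_mem hu hy) (inv_mem hu)) hmono
  obtain ⟨hgs', hI⟩ := mem_small.1 hgmem
  have key : ∀ (R : Subgroup (alternatingGroup (Fin n))) (hR : R ≤ (S : Subgroup _))
      (x : alternatingGroup (Fin n)), R = (S : Subgroup _) → x ∈ I.grp R hR →
        x ∈ I.grp (S : Subgroup _) le_rfl := by
    rintro R hR x rfl hx; exact hx
  rw [← hg']
  exact key _ _ _ hS.symm hI

/-- Strongly closed subgroups are trivial or the whole Sylow subgroup. -/
theorem eq_bot_or_eq_of_stronglyClosed {e : β × ZMod p ↪ Fin n}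
    {S : Sylow p (alternatingGroup (Fin n))} {W : Subgroup (Perm β)}
    (hS : (S : Subgroup (alternatingGroup (Fin n))) = model W e) (hWp : IsPGroup p W)
    (hWg : OmegaGen p W) (h3 : 3 ≤ Fintype.card β) {j : ZMod p ↪ β} (hj : ∀ x, shiftOn j x ∈ W)
    (T : Subgroup (alternatingGroup (Fin n)))
    (hT : (groupFusionSystem (S : Subgroup (alternatingGroup (Fin n)))).StronglyClosed T) :
    T = ⊥ ∨ T = (S : Subgroup (alternatingGroup (Fin n))) := by
  classical
  refine or_iff_not_imp_left.mpr fun hT1 => le_antisymm hT.1 ?_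
  haveI hn : (T.subgroupOf (S : Subgroup _)).Normal :=
    ⟨fun w hw s => CfsgLib.FusionSub.stronglyClosed_conj hT s.2 hw⟩
  have hne' : T.subgroupOf (S : Subgroup (alternatingGroup (Fin n))) ≠ ⊥ := fun hb => hT1 (by
    rw [Subgroup.subgroupOf_eq_bot] at hb
    exact disjoint_self.mp (hb.mono_right hT.1))
  obtain ⟨z, hzT, hz1, hzc⟩ := CfsgLib.TwoGroups.exists_mem_center_of_normal S.2 hne'
  set U : Subgroup (Perm (β × ZMod p)) := (T.map (alternatingGroup (Fin n)).subtype).comap (iota e)
  have hUmem : ∀ y, y ∈ U → ∃ hy : Perm.sign y = 1, toAlt e y hy ∈ T := by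
    rintro y ⟨t, ht, hty⟩
    have hy : Perm.sign y = 1 := by
      rw [← sign_iota e, ← hty]; exact Perm.mem_alternatingGroup.1 t.2
    exact ⟨hy, by rwa [show toAlt e y hy = t from Subtype.ext hty.symm]⟩
  have hUW : U ≤ wreathBy W := fun y hy => by
    obtain ⟨hys, hyT⟩ := hUmem y hy
    have h1 : toAlt e y hys ∈ model W e := hS ▸ hT.1 hyT
    obtain ⟨v, π, hπ, he⟩ := mem_model.1 h1
    exact (iota_inj e he) ▸ blk_mem_wreathBy.2 hπ
  have hclosed : Closed W U := ⟨fun y hy g hgs hgy => by
    obtain ⟨hys, hyT⟩ := hUmem y hy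
    set G' := toAlt e g hgs
    set x := toAlt e y hys
    have hgx : G' * x * G'⁻¹ ∈ (S : Subgroup (alternatingGroup (Fin n))) := by
      rw [hS]
      exact ⟨_, hgy, by simp [G', x, toAlt]⟩
    have hmem : ∀ w ∈ Subgroup.zpowers x, G' * w * G'⁻¹ ∈ (S : Subgroup (alternatingGroup (Fin n))) := by
      intro w hw
      obtain ⟨k, rfl⟩ := Subgroup.mem_zpowers_iff.mp hw
      rw [← conj_zpow]
      exact Subgroup.zpow_mem _ hgx k
    have h1 := hT.2 _ (Subgroup.zpowers_le.mpr hyT) _
      (FusionBasics.conjHom_mem_group G' (Subgroup.zpowers_le.mpr (hT.1 hyT)) hmem)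
      ⟨x, Subgroup.mem_zpowers _⟩
    exact ⟨_, h1, by simp only [map_mul, map_inv]; rfl⟩⟩
  obtain ⟨v, π, hπ, hzv⟩ := mem_model.1 (show (z : alternatingGroup (Fin n)) ∈ model W e from hS ▸ z.2)
  have hzU : blk v π ∈ U := ⟨z, hzT, hzv.symm⟩
  have hz1' : blk v π ≠ 1 := fun h => hz1 (Subtype.ext (Subtype.ext (by
    rw [← hzv, h, map_one]; rfl)))
  have hcent : ∀ y ∈ wreathBy W, Perm.sign y = 1 → blk v π * y = y * blk v π := by
    intro y hy hys
    apply iota_inj e
    rw [map_mul, map_mul, hzv]
    exact congrArg (fun w : (S : Subgroup (alternatingGroup (Fin n))) =>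
      ((w : alternatingGroup (Fin n)) : Perm (Fin n)))
      (Subgroup.mem_center_iff.mp hzc ⟨toAlt e y hys, hS ▸ toAlt_mem_lift hys hy⟩).symm
  have hord : ∀ y ∈ wreathBy W, Perm.sign y = 1 → y ^ p = 1 → y ∈ U := fun y hy hye hyp =>
    hclosed.mem_of_pow_eq_one hUW (fun y hy => (hUmem y hy).1) h3 hj hzU hz1' hcent hy hye hyp
  intro x hx
  obtain ⟨v', π', hπ', hxe⟩ := mem_model.1 (show x ∈ model W e from hS ▸ hx)
  have hxs : Perm.sign (blk v' π') = 1 := by
    rw [← sign_iota e, hxe]; exact Perm.mem_alternatingGroup.1 x.2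
  have hpi : ∀ σ : Perm β, σ ∈ W → Perm.sign (blk (p := p) (0 : β → ZMod p) σ) = 1 := by
    intro σ hσ
    by_cases hp : p = 2
    · rw [sign_blk_zero]
      subst hp
      exact Int.units_sq _
    · exact sign_eq_one_of_mem_wreathBy hp hWp (blk_mem_wreathBy.2 hσ)
  have hts : Perm.sign (tau v') = 1 := by
    rw [blk_eq_mul, map_mul, hpi π' hπ', one_mul] at hxs; exact hxs
  have hWU : (Subgroup.closure {s | s ∈ W ∧ s ^ p = 1}).map blkHom ≤ U := by
    rw [MonoidHom.map_closure, Subgroup.closure_le]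
    rintro _ ⟨s, ⟨hs, hsp⟩, rfl⟩
    exact hord _ (blk_mem_wreathBy.2 hs) (hpi s hs) (by rw [← map_pow, hsp, map_one])
  have hxU : blk v' π' ∈ U := by
    rw [blk_eq_mul]
    exact U.mul_mem (hWU ⟨π', hWg hπ', rfl⟩)
      (hord _ (blk_mem_wreathBy.2 W.one_mem) hts (tau_pow_prime v'))
  obtain ⟨t, ht, hte⟩ := hxU
  rwa [show x = t from Subtype.ext (hxe.symm.trans hte.symm)]

/-- The fusion system of the alternating group is simple. -/
theorem isSimple_alternating (n p : ℕ) (hn : 6 ≤ n) [Fact p.Prime] (hnp : p ^ 2 ≤ n)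
    (hb : n % p ≤ 1) (S : Sylow p (alternatingGroup (Fin n))) :
    (groupFusionSystem (S : Subgroup (alternatingGroup (Fin n)))).IsSimple p := by
  classical
  have hp := (Fact.out : p.Prime)
  obtain ⟨W, e, hW, hWg, hS⟩ := exists_model (by omega)
    ((Nat.le_self_pow two_ne_zero p).trans hnp) S
  have hm : p ≤ n / p := (Nat.le_div_iff_mul_le hp.pos).2 (by rwa [← sq])
  have h3 : 3 ≤ Fintype.card (Fin (n / p)) := by
    rw [Fintype.card_fin]
    rcases hp.eq_two_or_odd' with rfl | ho
    · omega
    · have := hp.two_le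
      obtain ⟨r, hr⟩ := ho
      omega
  obtain ⟨j, hj⟩ := exists_shift_mem (W := W) (by rw [Fintype.card_fin]; exact hW)
    (by rwa [Fintype.card_fin])
  have hWp : IsPGroup p W := IsPGroup.of_card hW
  have hne : (S : Subgroup (alternatingGroup (Fin n))) ≠ ⊥ := by
    intro hbot
    obtain ⟨l, -, hl⟩ := Finset.exists_mem_notMem_of_card_lt_card
      (s := ({j 0} : Finset (Fin (n / p)))) (t := Finset.univ) (by rw [Finset.card_singleton, Finset.card_univ]; omega)
    simp only [Finset.mem_singleton] at hl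
    set w : Fin (n / p) → ZMod p := Pi.single (j 0) 1 - Pi.single l 1
    have hm' : toAlt e (tau w) (sign_tau_sub_single _ _ _) ∈ (⊥ : Subgroup (alternatingGroup (Fin n))) := by
      rw [← hbot, hS]
      exact toAlt_mem_lift _ (blk_mem_wreathBy.2 W.one_mem)
    have h1 : iota e (tau w) = iota e (tau 0) := by
      rw [tau_zero, map_one]
      exact congrArg Subtype.val (Subgroup.mem_bot.1 hm')
    have h2 := congrFun (aff_inj (iota_inj e h1)).2.1 l
    simp [w, hl] at h2
  refine isSimple_of_inducers S hne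
    (eq_bot_or_eq_of_stronglyClosed hS hWp hWg h3 hj) fun I => ?_
  by_cases h2 : p = 2
  · subst h2
    intro h hh
    rw [CfsgLib.OutAut.sylowTwo_alternating_normalizer (by rw [Fintype.card_fin]; exact hn) S] at hh
    exact I.inner _ le_rfl h hh fun y hy => mul_mem (mul_mem hh hy) (inv_mem hh)
  · refine normalizer_le_of_odd h2 hS hWp ?_ h3 (fun h5 => by rw [Fintype.card_fin]; omega) hj I
    intro y z hy hz
    have hcard : (Finset.univ.map e)ᶜ.card ≤ 1 := by
      rw [Finset.card_compl, Finset.card_map, Finset.card_univ, Fintype.card_prod, ZMod.card,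
        Fintype.card_fin, Fintype.card_fin]
      have := Nat.div_add_mod n p
      rw [mul_comm] at this
      omega
    refine Finset.card_le_one.1 hcard y ?_ z ?_ <;> simp
    · exact fun a b h => hy ⟨(a, b), h⟩
    · exact fun a b h => hz ⟨(a, b), h⟩

end CfsgLib.AltFusion
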