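import Mathlib

/-!
Monomial permutations of `β × ZMod p` and Sylow subgroups of symmetric groups generated by
elements of order `p`.
-/

set_option autoImplicit false

namespace CfsgLib.AltFusion

open Equiv

variable {p : ℕ} [Fact p.Prime] {β γ : Type*}

/-- The permutation `(i, a) ↦ (π i, c i * a + v i)`. -/
def aff (c : β → (ZMod p)ˣ) (v : β → ZMod p) (π : Perm β) : Perm (β × ZMod p) where
  toFun x := (π x.1, (c x.1 : ZMod p) * x.2 + v x.1)
  invFun y := (π.symm y.1, (↑(c (π.symm y.1))⁻¹ : ZMod p) * (y.2 - v (π.symm y.1)))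
  left_inv x := by
    refine Prod.ext (π.symm_apply_apply _) ?_
    show ((c (π.symm (π x.1)))⁻¹ : (ZMod p)ˣ).val * _ = x.2
    rw [π.symm_apply_apply, add_sub_cancel_right, Units.inv_mul_cancel_left]
  right_inv y := by
    refine Prod.ext (π.apply_symm_apply _) ?_
    show (c (π.symm y.1) : ZMod p) * ((↑(c (π.symm y.1))⁻¹ : ZMod p) * _) + _ = y.2
    rw [Units.mul_inv_cancel_left, sub_add_cancel]

@[simp] theorem aff_apply (c : β → (ZMod p)ˣ) (v : β → ZMod p) (π : Perm β) (x : β × ZMod p) :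
    aff c v π x = (π x.1, (c x.1 : ZMod p) * x.2 + v x.1) := rfl

theorem aff_mul (c c' : β → (ZMod p)ˣ) (v v' : β → ZMod p) (π π' : Perm β) :
    aff c v π * aff c' v' π' =
      aff (fun i => c (π' i) * c' i) (fun i => (c (π' i) : ZMod p) * v' i + v (π' i)) (π * π') := by
  apply Equiv.ext; rintro ⟨i, a⟩
  simp only [Perm.mul_apply, aff_apply, Units.val_mul, Prod.mk.injEq, true_and]
  ring

theorem aff_one : aff (p := p) (fun _ : β => 1) (fun _ => 0) 1 = 1 := by
  apply Equiv.ext; rintro ⟨i, a⟩; simp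

theorem aff_inj {c c' : β → (ZMod p)ˣ} {v v' : β → ZMod p} {π π' : Perm β}
    (h : aff c v π = aff c' v' π') : c = c' ∧ v = v' ∧ π = π' := by
  have h0 : ∀ i a, (π i, (c i : ZMod p) * a + v i) = (π' i, (c' i : ZMod p) * a + v' i) :=
    fun i a => by simpa using DFunLike.congr_fun h (i, a)
  have hv : ∀ i, v i = v' i := fun i => by simpa using congrArg Prod.snd (h0 i 0)
  refine ⟨funext fun i => Units.ext ?_, funext hv, Equiv.ext fun i => ?_⟩
  · simpa [hv i] using congrArg Prod.snd (h0 i 1)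
  · simpa using congrArg Prod.fst (h0 i 0)

/-- A wreath element `(v, π)`. -/
abbrev blk (v : β → ZMod p) (π : Perm β) : Perm (β × ZMod p) := aff (fun _ => 1) v π

/-- The base element given by `v`. -/
abbrev tau (v : β → ZMod p) : Perm (β × ZMod p) := blk v 1

theorem blk_mul (v v' : β → ZMod p) (π π' : Perm β) :
    blk v π * blk v' π' = blk (fun i => v' i + v (π' i)) (π * π') := by
  simp [aff_mul]

theorem blk_inv (v : β → ZMod p) (π : Perm β) :
    (blk v π)⁻¹ = blk (fun i => - v (π⁻¹ i)) π⁻¹ := by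
  refine inv_eq_of_mul_eq_one_right ?_
  rw [blk_mul, mul_inv_cancel, ← aff_one]
  simp [blk]

theorem blk_eq_mul (v : β → ZMod p) (π : Perm β) : blk v π = blk 0 π * tau v := by
  simp [blk_mul]

theorem tau_mul (v w : β → ZMod p) : tau v * tau w = tau (v + w) := by
  rw [blk_mul, one_mul]
  congr 1
  funext i
  simp [add_comm]

theorem tau_zero : tau (p := p) (0 : β → ZMod p) = 1 := aff_one

theorem tau_pow (v : β → ZMod p) (k : ℕ) : tau v ^ k = tau (k • v) := by
  induction k with
  | zero => rw [pow_zero, zero_smul, tau_zero]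
  | succ k ih => rw [pow_succ, ih, tau_mul, succ_nsmul]

theorem tau_pow_prime (v : β → ZMod p) : tau v ^ p = 1 := by
  rw [tau_pow, ← tau_zero]
  congr 1
  funext i
  simp

/-- Block permutations as a homomorphism. -/
def blkHom : Perm β →* Perm (β × ZMod p) where
  toFun π := blk 0 π
  map_one' := aff_one
  map_mul' π π' := by rw [blk_mul]; simp; rfl

@[simp] theorem blkHom_apply (π : Perm β) : blkHom (p := p) π = blk 0 π := rfl

/-- The wreath product of `ZMod p` by `W`. -/
def wreathBy (W : Subgroup (Perm β)) : Subgroup (Perm (β × ZMod p)) where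
  carrier := {g | ∃ v : β → ZMod p, ∃ π ∈ W, blk v π = g}
  one_mem' := ⟨0, 1, W.one_mem, aff_one⟩
  mul_mem' := by
    rintro _ _ ⟨v, π, hπ, rfl⟩ ⟨v', π', hπ', rfl⟩
    exact ⟨_, _, W.mul_mem hπ hπ', (blk_mul v v' π π').symm⟩
  inv_mem' := by
    rintro _ ⟨v, π, hπ, rfl⟩
    exact ⟨_, _, W.inv_mem hπ, (blk_inv v π).symm⟩

theorem blk_mem_wreathBy {W : Subgroup (Perm β)} {v : β → ZMod p} {π : Perm β} :
    blk v π ∈ wreathBy W ↔ π ∈ W := by
  refine ⟨?_, fun h => ⟨v, π, h, rfl⟩⟩
  rintro ⟨v', π', hπ', h⟩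
  exact (aff_inj h).2.2 ▸ hπ'

theorem card_wreathBy [Finite β] (W : Subgroup (Perm β)) :
    Nat.card (wreathBy (p := p) W) = p ^ Nat.card β * Nat.card W := by
  have e : (β → ZMod p) × W ≃ wreathBy (p := p) W :=
    Equiv.ofBijective (fun x => ⟨blk x.1 x.2.1, blk_mem_wreathBy.2 x.2.2⟩)
      ⟨fun x y h => by
        have h' : blk x.1 x.2.1 = blk y.1 y.2.1 := congrArg Subtype.val h
        exact Prod.ext (aff_inj h').2.1 (Subtype.ext (aff_inj h').2.2),
      fun ⟨g, v, π, hπ, hg⟩ => ⟨(v, ⟨π, hπ⟩), Subtype.ext hg⟩⟩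
  rw [← Nat.card_congr e, Nat.card_prod, Nat.card_fun, Nat.card_zmod]

/-- A subgroup generated by its elements of order dividing `p`. -/
def OmegaGen (p : ℕ) {G : Type*} [Group G] (W : Subgroup G) : Prop :=
  W ≤ Subgroup.closure {x | x ∈ W ∧ x ^ p = 1}

theorem omegaGen_wreathBy {W : Subgroup (Perm β)} (hW : OmegaGen p W) :
    OmegaGen p (wreathBy (p := p) W) := by
  rintro _ ⟨v, π, hπ, rfl⟩
  rw [blk_eq_mul]
  refine mul_mem ?_ (Subgroup.subset_closure ⟨blk_mem_wreathBy.2 W.one_mem, tau_pow_prime v⟩)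
  have h : (Subgroup.closure {x | x ∈ W ∧ x ^ p = 1}).map blkHom
      ≤ Subgroup.closure {x : Perm (β × ZMod p) | x ∈ wreathBy W ∧ x ^ p = 1} := by
    rw [MonoidHom.map_closure, Subgroup.closure_le]
    rintro _ ⟨x, ⟨hx, hxp⟩, rfl⟩
    exact Subgroup.subset_closure ⟨blk_mem_wreathBy.2 hx, by rw [← map_pow, hxp, map_one]⟩
  exact h ⟨π, hW hπ, rfl⟩

theorem OmegaGen.map {G H : Type*} [Group G] [Group H] {W : Subgroup G} (hW : OmegaGen p W)
    (f : G →* H) : OmegaGen p (W.map f) := by
  refine (Subgroup.map_mono hW).trans ?_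
  rw [MonoidHom.map_closure, Subgroup.closure_le]
  rintro _ ⟨x, ⟨hx, hxp⟩, rfl⟩
  exact Subgroup.subset_closure ⟨⟨x, hx, rfl⟩, by rw [← map_pow, hxp, map_one]⟩

theorem val_factorial_div (m : ℕ) :
    padicValNat p m.factorial = m / p + padicValNat p (m / p).factorial := by
  conv_lhs => rw [← Nat.div_add_mod m p]
  rw [padicValNat_factorial_mul_add _ (Nat.mod_lt _ (Fact.out : p.Prime).pos),
    padicValNat_factorial_mul, add_comm]

/-- Every symmetric group has a subgroup of full `p`-order generated by elements of order `p`. -/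
theorem exists_omegaGen_sylow (m : ℕ) : ∃ W : Subgroup (Perm (Fin m)),
    Nat.card W = p ^ padicValNat p m.factorial ∧ OmegaGen p W := by
  induction m using Nat.strong_induction_on with
  | _ m ih =>
    rcases lt_or_ge m p with hlt | hle
    · refine ⟨⊥, ?_, bot_le⟩
      rw [val_factorial_div, Nat.div_eq_of_lt hlt, Nat.factorial_zero, padicValNat_one_right,
        Subgroup.card_bot, pow_zero]
    · have hp := (Fact.out : p.Prime)
      obtain ⟨W, hW, hg⟩ := ih (m / p) (Nat.div_lt_self (hp.pos.trans_le hle) hp.one_lt)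
      obtain ⟨e⟩ : Nonempty (Fin (m / p) × ZMod p ↪ Fin m) :=
        Function.Embedding.nonempty_of_card_le (by
          rw [Fintype.card_prod, ZMod.card, Fintype.card_fin, Fintype.card_fin]
          exact Nat.div_mul_le_self m p)
      refine ⟨(wreathBy W).map (Perm.viaEmbeddingHom e), ?_, (omegaGen_wreathBy hg).map _⟩
      rw [Subgroup.card_map_of_injective (Perm.viaEmbeddingHom_injective e), card_wreathBy, hW,
        Nat.card_fin, ← pow_add, ← val_factorial_div]

end CfsgLib.AltFusion
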