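import Cfsg.Agent.Lib.AltFusion.Automizer

/-!
The inducers of a subsystem contain all even monomial permutations, second part.
-/

set_option autoImplicit false
set_option linter.unusedSectionVars false

namespace CfsgLib.AltFusion

open Equiv

variable {p : ℕ} [Fact p.Prime] {β : Type*} [Fintype β] [DecidableEq β] {n : ℕ}

section Main

variable {e : β × ZMod p ↪ Fin n} {S : Sylow p (alternatingGroup (Fin n))} (I : Inducers S)
  {W : Subgroup (Perm β)} (hS : (S : Subgroup (alternatingGroup (Fin n))) = model W e)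
  (hp : p ≠ 2) (hWp : IsPGroup p W)
  (hfix : ∀ y z : Fin n, y ∉ Set.range e → z ∉ Set.range e → y = z)
  (h3 : 3 ≤ Fintype.card β) (h5 : 5 ≤ p → 5 ≤ Fintype.card β)
  {j : ZMod p ↪ β} (hj : ∀ x, shiftOn j x ∈ W)

local notation "IP" => small I (wreathBy (p := p) (⊥ : Subgroup (Perm β))) (lift_bot_le hS)

/-- Diagonal elements as a homomorphism. -/
def torusHom : (β → (ZMod p)ˣ) →* Perm (β × ZMod p) where
  toFun c := aff c (0 : β → ZMod p) 1
  map_one' := aff_one
  map_mul' c c' := by simp [aff_mul]; rfl

theorem torusHom_apply (c : β → (ZMod p)ˣ) : torusHom c = aff c (0 : β → ZMod p) 1 := rfl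

theorem sign_torus (c : β → (ZMod p)ˣ) :
    Perm.sign (torusHom c) = Perm.sign (Units.mulLeft (∏ i, c i) : Perm (ZMod p)) := by
  have h : torusHom c = prodCongrRight fun i => (Units.mulLeft (c i) : Perm (ZMod p)) := by
    apply Equiv.ext; rintro ⟨i, a⟩; simp [torusHom_apply]
  let χ : (ZMod p)ˣ →* ℤˣ :=
    { toFun := fun u => Perm.sign (Units.mulLeft u : Perm (ZMod p))
      map_one' := by rw [show (Units.mulLeft (1 : (ZMod p)ˣ) : Perm (ZMod p)) = 1 from
        Equiv.ext fun z => by simp, map_one]
      map_mul' := fun u v => by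
        rw [show (Units.mulLeft (u * v) : Perm (ZMod p)) = Units.mulLeft u * Units.mulLeft v from
          Equiv.ext fun z => by simp [mul_assoc], map_mul] }
  rw [h, Perm.sign_prodCongrRight]
  exact (map_prod χ c Finset.univ).symm

include hS hp hj h3 h5 in
theorem torus_mem {c : β → (ZMod p)ˣ} (hc : ∏ i, c i = 1) : torusHom c ∈ IP := by
  classical
  set M : Subgroup (β → (ZMod p)ˣ) := (IP).comap torusHom
  have hpair : ∀ (u : (ZMod p)ˣ) (i k : β), Pi.mulSingle i u * Pi.mulSingle k u⁻¹ ∈ M := by
    intro u i k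
    rcases eq_or_ne i k with rfl | hik
    · rw [← Pi.mulSingle_mul, mul_inv_cancel, Pi.mulSingle_one]
      exact one_mem _
    obtain ⟨l, -, hl⟩ := Finset.exists_mem_notMem_of_card_lt_card
      (s := ({i, k} : Finset β)) (t := Finset.univ)
      ((Finset.card_le_two).trans_lt (by rw [Finset.card_univ]; omega))
    simp only [Finset.mem_insert, Finset.mem_singleton, not_or] at hl
    obtain ⟨hli', hlk'⟩ := hl
    have hli : l ≠ i := hli'
    have hlk : l ≠ k := hlk'
    set d : β → (ZMod p)ˣ := Pi.mulSingle i u * Pi.mulSingle l u with hd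
    set σ : Perm β := swap i l * swap l k with hσd
    have hσ : Perm.sign σ = 1 := by
      rw [hσd, map_mul, Perm.sign_swap hli.symm, Perm.sign_swap hlk]; simp
    have hds : Perm.sign (torusHom d) = 1 := by
      have hprod : ∏ x, d x = u * u := by
        simp only [hd, Pi.mul_apply, Finset.prod_mul_distrib]
        rw [Finset.prod_pi_mulSingle', Finset.prod_pi_mulSingle']
        simp
      rw [sign_torus, hprod,
        show (Units.mulLeft (u * u) : Perm (ZMod p)) = Units.mulLeft u * Units.mulLeft u from
          Equiv.ext fun z => by simp [mul_assoc], map_mul, Int.units_mul_self]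
    have hmem := mul_mem (small_conj hds (aff_normalizes_bot d 0 1) (alt_mem I hS hp h5 hj hσ))
      (inv_mem (alt_mem I hS hp h5 hj hσ))
    have he : torusHom d * blk (0 : β → ZMod p) σ
        = torusHom (Pi.mulSingle i u * Pi.mulSingle k u⁻¹) * blk (0 : β → ZMod p) σ * torusHom d := by
      simp only [torusHom_apply, aff_mul, one_mul, mul_one]
      congr 1
      · funext x
        rcases eq_or_ne x i with rfl | hxi
        · simp [hd, hσd, swap_apply_of_ne_of_ne, hik, hik.symm, hli, hli.symm, hlk, hlk.symm]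
        rcases eq_or_ne x l with rfl | hxl
        · simp [hd, hσd, swap_apply_of_ne_of_ne, hik, hik.symm, hli, hli.symm, hlk, hlk.symm]
        rcases eq_or_ne x k with rfl | hxk
        · simp [hd, hσd, swap_apply_of_ne_of_ne, hik, hik.symm, hli, hli.symm, hlk, hlk.symm]
        · simp [hd, hσd, swap_apply_of_ne_of_ne, hxi, hxl, hxk]
      · funext x; simp
    rw [he, mul_inv_cancel_right, mul_inv_cancel_right] at hmem
    exact hmem
  have hne : Nonempty β := Fintype.card_pos_iff.1 (by omega)
  obtain ⟨k0⟩ := hne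
  have hdec : c = ∏ i, (Pi.mulSingle i (c i) * Pi.mulSingle k0 (c i)⁻¹) := by
    rw [Finset.prod_mul_distrib, Finset.univ_prod_mulSingle]
    have : ∏ x, Pi.mulSingle (M := fun _ : β => (ZMod p)ˣ) k0 (c x)⁻¹ = 1 := by
      rw [show (fun x => Pi.mulSingle (M := fun _ : β => (ZMod p)ˣ) k0 (c x)⁻¹)
          = fun x => MonoidHom.mulSingle (fun _ : β => (ZMod p)ˣ) k0 (c x)⁻¹ from rfl,
        ← map_prod, Finset.prod_inv_distrib, hc, inv_one, map_one]
    rw [this, mul_one]
  rw [hdec]
  exact (Subgroup.prod_mem M fun i _ => hpair (c i) i k0 : _)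

include hS hp hWp hfix hj h3 h5 in
/-- All even monomial permutations induce maps of the subsystem. -/
theorem monomial_mem {c : β → (ZMod p)ˣ} {π : Perm β}
    (hs : Perm.sign (aff c (0 : β → ZMod p) π) = 1) : aff c (0 : β → ZMod p) π ∈ IP := by
  classical
  set t : (ZMod p)ˣ := ∏ i, c i with ht
  set y := onPlane j (diagT t)
  have hy : y ∈ IP := diag_mem I hS hp hWp hfix hj t
  set cy : β → (ZMod p)ˣ := fun i => if i ∈ Set.range j then t else 1 with hcy
  set πy : Perm β := Perm.viaEmbeddingHom j (Units.mulLeft t⁻¹) with hπy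
  have hyeq : y = aff cy (0 : β → ZMod p) πy := by
    apply Equiv.ext; rintro ⟨i, a⟩
    by_cases hi : i ∈ Set.range j
    · obtain ⟨z, rfl⟩ := hi
      simp only [y, onPlane_apply, aff_apply, hπy, Perm.viaEmbeddingHom_apply,
        Perm.viaEmbedding_apply, hcy, Set.mem_range_self, if_true, Pi.zero_apply, add_zero]
      rfl
    · simp only [y, onPlane_apply_of_notMem j _ hi, aff_apply, hπy, Perm.viaEmbeddingHom_apply,
        Perm.viaEmbedding_apply_of_notMem _ j _ hi, hcy, if_neg hi, Pi.zero_apply, add_zero,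
        Units.val_one, one_mul]
  set c' : β → (ZMod p)ˣ := fun x => c (π.symm x) * (cy (π.symm x))⁻¹ with hc'
  set π' := π * πy⁻¹ with hπ'
  have hprod : ∏ x, c' x = 1 := by
    rw [hc', Equiv.prod_comp π.symm (fun x => c x * (cy x)⁻¹), Finset.prod_mul_distrib,
      Finset.prod_inv_distrib, ← ht]
    have hcyp : ∏ x, cy x = t := by
      rw [hcy, Finset.prod_ite, Finset.prod_const_one, mul_one, Finset.prod_const]
      have : (Finset.univ.filter (fun x => x ∈ Set.range j)).card = p := by
        rw [show Finset.univ.filter (fun x => x ∈ Set.range j) = Finset.univ.map j by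
          ext x; simp, Finset.card_map, Finset.card_univ, ZMod.card]
      rw [this]
      calc t ^ p = t ^ (p - 1) * t := by
            rw [← pow_succ, Nat.sub_add_cancel (Fact.out : p.Prime).one_le]
        _ = t := by rw [ZMod.units_pow_card_sub_one_eq_one, one_mul]
    rw [hcyp, mul_inv_cancel]
  have hdec : aff c (0 : β → ZMod p) π = torusHom c' * blk (0 : β → ZMod p) π' * y := by
    rw [hyeq, torusHom_apply]
    simp only [aff_mul, one_mul, mul_one, hπ', inv_mul_cancel_right]
    congr 1
    · funext x
      simp [hc', Perm.mul_apply, mul_assoc]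
    · funext x; simp
  have hπs : Perm.sign π' = 1 := by
    have h1 := congrArg Perm.sign hdec
    obtain ⟨hys, -⟩ := mem_small.1 hy
    rw [hs, map_mul, map_mul, sign_torus, hprod, sign_blk_zero, hys,
      show (Units.mulLeft (1 : (ZMod p)ˣ) : Perm (ZMod p)) = 1 from Equiv.ext fun z => by simp,
      map_one, one_mul, mul_one] at h1
    rcases Int.units_eq_one_or (Perm.sign π') with h | h
    · exact h
    · rw [h, ((Fact.out : p.Prime).odd_of_ne_two hp).neg_one_pow] at h1
      exact absurd h1 (by decide)
  rw [hdec]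
  exact mul_mem (mul_mem (torus_mem I hS hp h3 h5 hj hprod) (alt_mem I hS hp h5 hj hπs)) hy

end Main

end CfsgLib.AltFusion
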