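import Cfsg.Agent.Lib.AltFusion.Setting

/-!
Parities, shifts inside a Sylow subgroup and cycle types of base elements.
-/

set_option autoImplicit false

namespace CfsgLib.AltFusion

open Equiv

set_option linter.unusedSectionVars false

variable {p : ℕ} [Fact p.Prime] {β : Type*} [Fintype β] [DecidableEq β]

theorem sign_eq_one_of_pow_odd {α : Type*} [Fintype α] [DecidableEq α] (hp : p ≠ 2) {g : Perm α}
    (hg : g ^ p = 1) : Perm.sign g = 1 := by
  rcases Int.units_eq_one_or (Perm.sign g) with h | h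
  · exact h
  · have h1 := congrArg Perm.sign hg
    rw [map_pow, h, map_one, ((Fact.out : p.Prime).odd_of_ne_two hp).neg_one_pow] at h1
    exact absurd h1 (by decide)

theorem sign_blk_zero (π : Perm β) :
    Perm.sign (blk (p := p) (0 : β → ZMod p) π) = Perm.sign π ^ p := by
  have h : blk (p := p) (0 : β → ZMod p) π = prodCongrLeft fun _ : ZMod p => π := by
    apply Equiv.ext; rintro ⟨i, a⟩; simp
  rw [h, Perm.sign_prodCongrLeft, Finset.prod_const, Finset.card_univ, ZMod.card]

theorem sign_tau (v : β → ZMod p) :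
    Perm.sign (tau v) = ∏ i, Perm.sign (Equiv.addRight (v i) : Perm (ZMod p)) := by
  have h : tau v = prodCongrRight fun i => (Equiv.addRight (v i) : Perm (ZMod p)) := by
    apply Equiv.ext; rintro ⟨i, a⟩; simp
  rw [h, Perm.sign_prodCongrRight]

theorem sign_tau_of_odd (hp : p ≠ 2) (v : β → ZMod p) : Perm.sign (tau v) = 1 :=
  sign_eq_one_of_pow_odd hp (tau_pow_prime v)

theorem sign_tau_sub_single (i j : β) (a : ZMod p) :
    Perm.sign (tau (Pi.single i a - Pi.single j a : β → ZMod p)) = 1 := by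
  by_cases hp : p = 2
  · subst hp
    have h1 : ∀ k : β, Perm.sign (tau (Pi.single k a : β → ZMod 2))
        = Perm.sign (Equiv.addRight a : Perm (ZMod 2)) := fun k => by
      rw [sign_tau, Finset.prod_eq_single k]
      · simp
      · intro b _ hb; simp [Pi.single_eq_of_ne hb]
      · simp
    have h2 : Pi.single i a - Pi.single j a = (Pi.single i a + Pi.single j a : β → ZMod 2) :=
      funext fun k => by simp [ZModModule.sub_eq_add]
    rw [h2, ← tau_mul, map_mul, h1, h1, Int.units_mul_self]
  · exact sign_tau_of_odd hp _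

/-- The translation by `x` on the image of `j`. -/
noncomputable def shiftOn (j : ZMod p ↪ β) (x : ZMod p) : Perm β :=
  Perm.viaEmbeddingHom j (Equiv.addRight x)

theorem shiftOn_apply (j : ZMod p ↪ β) (x y : ZMod p) : shiftOn j x (j y) = j (y + x) :=
  Perm.viaEmbedding_apply _ j y

theorem shiftOn_apply_of_notMem (j : ZMod p ↪ β) (x : ZMod p) {b : β} (hb : b ∉ Set.range j) :
    shiftOn j x b = b := Perm.viaEmbedding_apply_of_notMem _ j b hb

theorem shiftOn_add (j : ZMod p ↪ β) (x y : ZMod p) :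
    shiftOn j (x + y) = shiftOn j y * shiftOn j x := by
  rw [shiftOn, shiftOn, shiftOn, ← map_mul]
  congr 1
  exact Equiv.ext fun z => by simp [add_assoc]

theorem shiftOn_zero (j : ZMod p ↪ β) : shiftOn j 0 = 1 := by
  rw [shiftOn, show (Equiv.addRight (0 : ZMod p)) = 1 from Equiv.ext fun z => by simp, map_one]

theorem shiftOn_nsmul (j : ZMod p ↪ β) (x : ZMod p) (k : ℕ) :
    shiftOn j (k • x) = shiftOn j x ^ k := by
  induction k with
  | zero => rw [zero_smul, shiftOn_zero, pow_zero]
  | succ k ih => rw [succ_nsmul, shiftOn_add, ih, pow_succ']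

theorem shiftOn_natCast (j : ZMod p ↪ β) (k : ℕ) : shiftOn j (k : ZMod p) = shiftOn j 1 ^ k := by
  rw [← shiftOn_nsmul, nsmul_one]

theorem shiftOn_one_pow (j : ZMod p ↪ β) : shiftOn j (1 : ZMod p) ^ p = 1 := by
  rw [← shiftOn_natCast, ZMod.natCast_self, shiftOn_zero]

/-- A subgroup of full `p`-order contains a `p`-cycle. -/
theorem exists_shift_mem {W : Subgroup (Perm β)}
    (hW : Nat.card W = p ^ padicValNat p (Fintype.card β).factorial) (hle : p ≤ Fintype.card β) :
    ∃ j : ZMod p ↪ β, ∀ x, shiftOn j x ∈ W := by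
  classical
  have hp := (Fact.out : p.Prime)
  have hc : Nat.card W = p ^ (Nat.card (Perm β)).factorization p := by
    rw [Nat.card_perm, Nat.card_eq_fintype_card (α := β), hW, Nat.factorization_def _ hp]
  let P : Sylow p (Perm β) := Sylow.ofCard W hc
  obtain ⟨j0⟩ : Nonempty (ZMod p ↪ β) :=
    Function.Embedding.nonempty_of_card_le (by rwa [ZMod.card])
  have hz : IsPGroup p (Subgroup.zpowers (shiftOn j0 (1 : ZMod p))) := by
    obtain ⟨i, -, hi⟩ := (Nat.dvd_prime_pow hp).1
      (orderOf_dvd_of_pow_eq_one (show shiftOn j0 (1 : ZMod p) ^ p ^ 1 = 1 by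
        rw [pow_one, shiftOn_one_pow]))
    exact IsPGroup.of_card (n := i) (by rw [Nat.card_zpowers, hi])
  obtain ⟨Q, hQ⟩ := hz.exists_le_sylow
  obtain ⟨g, hg⟩ := MulAction.exists_smul_eq (Perm β) Q P
  have hmem : g * shiftOn j0 1 * g⁻¹ ∈ W := by
    have h := congrArg Sylow.toSubgroup hg
    rw [Sylow.coe_subgroup_smul] at h
    show g * shiftOn j0 1 * g⁻¹ ∈ (P : Subgroup (Perm β))
    rw [← h, Subgroup.pointwise_smul_def]
    exact ⟨_, hQ (Subgroup.mem_zpowers _), rfl⟩
  have hconj : shiftOn (j0.trans g.toEmbedding) 1 = g * shiftOn j0 (1 : ZMod p) * g⁻¹ := by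
    refine Equiv.ext fun b => ?_
    by_cases hb : g⁻¹ b ∈ Set.range j0
    · obtain ⟨y, hy⟩ := hb
      have hb' : b = (j0.trans g.toEmbedding) y := by
        simp [hy]
      rw [hb', shiftOn_apply]
      simp [shiftOn_apply]
    · rw [shiftOn_apply_of_notMem _ _ (by
        rintro ⟨y, rfl⟩
        exact hb ⟨y, by simp⟩)]
      show b = g (shiftOn j0 1 (g⁻¹ b))
      rw [shiftOn_apply_of_notMem _ _ hb]
      simp
  refine ⟨j0.trans g.toEmbedding, fun x => ?_⟩
  have hx := shiftOn_natCast (j0.trans g.toEmbedding) (ZMod.val x)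
  rw [ZMod.natCast_zmod_val] at hx
  rw [hx, hconj]
  exact pow_mem hmem _

theorem cycleType_tau (K : Finset β) :
    (tau (fun i => if i ∈ K then (1 : ZMod p) else 0)).cycleType
      = Multiset.replicate K.card p := by
  classical
  have hp := (Fact.out : p.Prime)
  set t := tau (fun i => if i ∈ K then (1 : ZMod p) else 0) with ht
  have hall : ∀ k ∈ t.cycleType, k = p := fun k hk => by
    have h1 : k ∣ orderOf t := Perm.dvd_of_mem_cycleType hk
    have h2 := h1.trans (orderOf_dvd_of_pow_eq_one (tau_pow_prime _))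
    rcases (Nat.dvd_prime hp).1 h2 with rfl | rfl
    · exact absurd (Perm.two_le_of_mem_cycleType hk) (by norm_num)
    · rfl
  have hrep := Multiset.eq_replicate_card.2 hall
  have hsupp : t.support = K ×ˢ (Finset.univ : Finset (ZMod p)) := by
    ext ⟨i, a⟩
    by_cases hi : i ∈ K <;> simp [ht, Perm.mem_support, hi]
  have hsum := t.sum_cycleType
  rw [hsupp, Finset.card_product, Finset.card_univ, ZMod.card, hrep, Multiset.sum_replicate,
    smul_eq_mul] at hsum
  rw [hrep, Nat.eq_of_mul_eq_mul_right hp.pos hsum]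

end CfsgLib.AltFusion
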