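import Cfsg.Agent.Lib.AltFusion.Model

/-!
The model Sylow subgroup of an alternating group attached to an embedding of `β × ZMod p`.
-/

set_option autoImplicit false

namespace CfsgLib.AltFusion

open Equiv

variable {p : ℕ} [Fact p.Prime] {β : Type*} {n : ℕ}

/-- The permutations of `Fin n` coming from `β × ZMod p`. -/
noncomputable abbrev iota (e : β × ZMod p ↪ Fin n) : Perm (β × ZMod p) →* Perm (Fin n) :=
  Perm.viaEmbeddingHom e

theorem iota_apply (e : β × ZMod p ↪ Fin n) (g : Perm (β × ZMod p)) (x : β × ZMod p) :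
    iota e g (e x) = e (g x) := Perm.viaEmbedding_apply g e x

theorem iota_apply_of_notMem (e : β × ZMod p ↪ Fin n) (g : Perm (β × ZMod p)) {y : Fin n}
    (hy : y ∉ Set.range e) : iota e g y = y := Perm.viaEmbedding_apply_of_notMem g e y hy

theorem iota_inj (e : β × ZMod p ↪ Fin n) : Function.Injective (iota e) :=
  Perm.viaEmbeddingHom_injective e

/-- A permutation agreeing with `iota e g` on the range and fixing the rest is `iota e g`. -/
theorem eq_iota {e : β × ZMod p ↪ Fin n} {g : Perm (β × ZMod p)} {h : Perm (Fin n)}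
    (h1 : ∀ x, h (e x) = e (g x)) (h2 : ∀ y, y ∉ Set.range e → h y = y) : h = iota e g := by
  refine Equiv.ext fun y => ?_
  by_cases hy : y ∈ Set.range e
  · obtain ⟨x, rfl⟩ := hy
    rw [h1, iota_apply]
  · rw [h2 y hy, iota_apply_of_notMem e g hy]

theorem sign_iota [Fintype β] [DecidableEq β] (e : β × ZMod p ↪ Fin n) (g : Perm (β × ZMod p)) :
    Perm.sign (iota e g) = Perm.sign g := by
  classical
  exact @Equiv.Perm.sign_extendDomain _ _ _ _ _ _ g _ (fun a => Classical.propDecidable _) _

theorem iota_trans (e : β × ZMod p ↪ Fin n) (g : Perm (Fin n)) (x : Perm (β × ZMod p)) :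
    iota (e.trans g.toEmbedding) x = g * iota e x * g⁻¹ := by
  symm
  refine eq_iota (fun y => ?_) fun y hy => ?_
  · simp only [Perm.mul_apply, Function.Embedding.trans_apply, Equiv.coe_toEmbedding,
      Perm.coe_inv, Equiv.symm_apply_apply]
    rw [iota_apply]
  · have hy' : g⁻¹ y ∉ Set.range e := by
      rintro ⟨x, hx⟩
      exact hy ⟨x, by simp [hx]⟩
    show g (iota e x (g⁻¹ y)) = y
    rw [iota_apply_of_notMem e x hy']
    simp

/-- The model subgroup of the alternating group. -/
noncomputable def model (W : Subgroup (Perm β)) (e : β × ZMod p ↪ Fin n) :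
    Subgroup (alternatingGroup (Fin n)) :=
  ((wreathBy W).map (iota e)).subgroupOf (alternatingGroup (Fin n))

theorem mem_model {W : Subgroup (Perm β)} {e : β × ZMod p ↪ Fin n} {x : alternatingGroup (Fin n)} :
    x ∈ model W e ↔ ∃ (v : β → ZMod p) (π : Perm β), π ∈ W ∧ iota e (blk v π) = x := by
  constructor
  · rintro ⟨_, ⟨v, π, hπ, rfl⟩, h⟩
    exact ⟨v, π, hπ, h⟩
  · rintro ⟨v, π, hπ, h⟩
    exact ⟨_, blk_mem_wreathBy.2 hπ, h⟩

theorem model_trans (W : Subgroup (Perm β)) (e : β × ZMod p ↪ Fin n)
    (g : alternatingGroup (Fin n)) :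
    model W (e.trans (g : Perm (Fin n)).toEmbedding) = (model W e).map (MulAut.conj g).toMonoidHom := by
  ext x
  rw [Subgroup.mem_map]
  constructor
  · intro hx
    obtain ⟨v, π, hπ, h⟩ := mem_model.1 hx
    rw [iota_trans] at h
    refine ⟨g⁻¹ * x * g, mem_model.2 ⟨v, π, hπ, ?_⟩, by simp [mul_assoc]⟩
    simp only [Subgroup.coe_mul, Subgroup.coe_inv, ← h]
    group
  · rintro ⟨y, hy, rfl⟩
    obtain ⟨v, π, hπ, h⟩ := mem_model.1 hy
    refine mem_model.2 ⟨v, π, hπ, ?_⟩
    rw [iota_trans, h]
    simp

/-- Every Sylow subgroup of the alternating group is a model subgroup. -/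
theorem exists_model (h2 : 2 ≤ n) (hpn : p ≤ n) (S : Sylow p (alternatingGroup (Fin n))) :
    ∃ (W : Subgroup (Perm (Fin (n / p)))) (e : Fin (n / p) × ZMod p ↪ Fin n),
      Nat.card W = p ^ padicValNat p (n / p).factorial ∧ OmegaGen p W ∧
      (S : Subgroup (alternatingGroup (Fin n))) = model W e := by
  classical
  have hp := (Fact.out : p.Prime)
  haveI : Nontrivial (Fin n) := Fin.nontrivial_iff_two_le.2 h2
  obtain ⟨W, hW, hg⟩ := exists_omegaGen_sylow (p := p) (n / p)
  obtain ⟨e⟩ : Nonempty (Fin (n / p) × ZMod p ↪ Fin n) :=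
    Function.Embedding.nonempty_of_card_le (by
      rw [Fintype.card_prod, ZMod.card, Fintype.card_fin, Fintype.card_fin]
      exact Nat.div_mul_le_self n p)
  let A := alternatingGroup (Fin n)
  set K := (wreathBy W).map (iota e)
  have hK : Nat.card K = p ^ padicValNat p n.factorial := by
    rw [Subgroup.card_map_of_injective (iota_inj e), card_wreathBy, hW, Nat.card_fin, ← pow_add,
      ← val_factorial_div]
  have hKp : IsPGroup p K := IsPGroup.of_card hK
  have hM : IsPGroup p (model W e) := hKp.comap_of_injective _ A.subtype_injective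
  have hKA : Nat.card (model W e) * A.relIndex K = Nat.card K := by
    have hc : ∀ H L : Subgroup (Perm (Fin n)), Nat.card (H.subgroupOf L) = Nat.card ↥(H ⊓ L) :=
      fun H L => by
        rw [← Subgroup.inf_subgroupOf_right, Nat.card_congr
          (Subgroup.subgroupOfEquivOfLe (inf_le_right : H ⊓ L ≤ L)).toEquiv]
    have h := (A.subgroupOf K).card_mul_index
    rw [hc, inf_comm, ← hc] at h
    exact h
  have hA2 : A.index = 2 := alternatingGroup.index_eq_two
  have hrel : A.relIndex K ∣ 2 := hA2 ▸ Subgroup.relIndex_dvd_index_of_normal A K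
  have hcard : Nat.card A * 2 = n.factorial := by
    rw [← hA2, A.card_mul_index, Nat.card_perm, Nat.card_fin]
  have hidx : ¬ p ∣ (model W e).index := by
    intro hd
    have hM' := (model W e).card_mul_index
    have hv : padicValNat p (Nat.card (model W e) * A.relIndex K) = padicValNat p n.factorial := by
      rw [hKA, hK, padicValNat.prime_pow]
    have hne : A.relIndex K ≠ 0 := fun h0 => by rw [h0] at hrel; simp at hrel
    rw [padicValNat.mul Nat.card_pos.ne' hne] at hv
    have hv2 : padicValNat p (A.relIndex K) ≤ padicValNat p 2 := by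
      obtain ⟨t, ht⟩ := hrel
      have htne : t ≠ 0 := by rintro rfl; simp at ht
      rw [ht, padicValNat.mul hne htne]
      omega
    have hi : (model W e).index ≠ 0 := Subgroup.index_ne_zero_of_finite
    have h3 := one_le_padicValNat_of_dvd hi hd
    rw [← hcard, ← hM', padicValNat.mul (mul_ne_zero Nat.card_pos.ne' hi) two_ne_zero,
      padicValNat.mul Nat.card_pos.ne' hi] at hv
    omega
  obtain ⟨g, hg'⟩ := MulAction.exists_smul_eq A (hM.toSylow hidx) S
  refine ⟨W, e.trans (g : Perm (Fin n)).toEmbedding, hW, hg, ?_⟩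
  rw [model_trans]
  refine (congrArg Sylow.toSubgroup hg').symm.trans ?_
  rfl


end CfsgLib.AltFusion
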