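import Cfsg.Agent.Lib.AltFusion.Lines
import Cfsg.Agent.Lib.AltFusion.Criterion

/-!
Transport between subgroups of permutations of `β × ZMod p` and of the alternating group.
-/

set_option autoImplicit false
set_option linter.unusedSectionVars false

namespace CfsgLib.AltFusion

open Equiv

variable {p : ℕ} [Fact p.Prime] {β : Type*} [Fintype β] [DecidableEq β] {n : ℕ}

theorem aff_zero_mul_tau (c : β → (ZMod p)ˣ) (π : Perm β) (w : β → ZMod p) :
    aff c (0 : β → ZMod p) π * tau w
      = tau (fun i => (c (π.symm i) : ZMod p) * w (π.symm i)) * aff c (0 : β → ZMod p) π := by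
  simp [aff_mul]

theorem aff_zero_mul_blk (c : β → (ZMod p)ˣ) (π σ : Perm β) (v : β → ZMod p)
    (hc : ∀ i, c (σ i) = c i) :
    aff c (0 : β → ZMod p) π * blk v σ
      = blk (fun x => (c (π.symm x) : ZMod p) * v (π.symm x)) (π * σ * π⁻¹)
          * aff c (0 : β → ZMod p) π := by
  simp only [blk, aff_mul, inv_mul_cancel_right, mul_one, one_mul]
  congr 1
  · funext i; exact hc i
  · funext i; simp [hc i]

theorem aff_eq_tau_mul (c : β → (ZMod p)ˣ) (v : β → ZMod p) (π : Perm β) :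
    aff c v π = tau (fun i => v (π.symm i)) * aff c (0 : β → ZMod p) π := by
  simp [aff_mul]

theorem exists_tau_of_mem_bot {g : Perm (β × ZMod p)} (hg : g ∈ wreathBy (⊥ : Subgroup (Perm β))) :
    ∃ w, tau w = g := by
  obtain ⟨v, π, hπ, rfl⟩ := hg
  exact ⟨v, by rw [Subgroup.mem_bot.1 hπ]⟩

/-- The subgroup of the alternating group coming from a subgroup of permutations of the product. -/
noncomputable def lift (e : β × ZMod p ↪ Fin n) (H : Subgroup (Perm (β × ZMod p))) :
    Subgroup (alternatingGroup (Fin n)) :=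
  (H.map (iota e)).subgroupOf (alternatingGroup (Fin n))

theorem lift_wreathBy (W : Subgroup (Perm β)) (e : β × ZMod p ↪ Fin n) :
    lift e (wreathBy W) = model W e := rfl

theorem mem_lift {e : β × ZMod p ↪ Fin n} {H : Subgroup (Perm (β × ZMod p))}
    {x : alternatingGroup (Fin n)} : x ∈ lift e H ↔ ∃ g ∈ H, iota e g = x := Iff.rfl

/-- An even permutation as an element of the alternating group. -/
noncomputable def toAlt (e : β × ZMod p ↪ Fin n) (g : Perm (β × ZMod p)) (hg : Perm.sign g = 1) :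
    alternatingGroup (Fin n) :=
  ⟨iota e g, Perm.mem_alternatingGroup.2 (by rw [sign_iota, hg])⟩

theorem sign_eq_one_of_mem_wreathBy (hp : p ≠ 2) {W : Subgroup (Perm β)} (hW : IsPGroup p W)
    {g : Perm (β × ZMod p)} (hg : g ∈ wreathBy W) : Perm.sign g = 1 := by
  obtain ⟨v, π, hπ, rfl⟩ := hg
  have hodd : Odd p := (Fact.out : p.Prime).odd_of_ne_two hp
  obtain ⟨k, hk⟩ := hW ⟨π, hπ⟩
  have hπs : Perm.sign π = 1 := by
    rcases Int.units_eq_one_or (Perm.sign π) with h | h
    · exact h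
    · have h1 := congrArg Perm.sign (congrArg Subtype.val hk)
      simp only [SubmonoidClass.coe_pow, map_pow, h, OneMemClass.coe_one, map_one,
        (hodd.pow).neg_one_pow] at h1
      exact absurd h1 (by decide)
  rw [blk_eq_mul, map_mul, sign_blk_zero, sign_tau_of_odd hp, hπs, one_pow, one_mul]

/-- A permutation commuting with a family moving every point of the range comes from the product. -/
theorem exists_small (e : β × ZMod p ↪ Fin n) (hfix : ∀ y z : Fin n, y ∉ Set.range e → z ∉ Set.range e → y = z)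
    {h : Perm (Fin n)} (hh : ∀ x, h (e x) ∈ Set.range e) :
    ∃ g : Perm (β × ZMod p), h = iota e g := by
  choose f hf using hh
  have hinj : Function.Injective f := fun a b hab => by
    apply e.injective
    apply h.injective
    rw [← hf a, ← hf b, hab]
  let g : Perm (β × ZMod p) := Equiv.ofBijective f (Finite.injective_iff_bijective.1 hinj)
  refine ⟨g, eq_iota (fun x => (hf x).symm) fun y hy => hfix _ _ ?_ hy⟩
  rintro ⟨x, hx⟩
  have h2 : e x = h (e (g.symm x)) := by
    rw [← hf (g.symm x)]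
    exact congrArg e (g.apply_symm_apply x).symm
  exact hy ⟨g.symm x, h.injective (h2.symm.trans hx)⟩

theorem mem_range_of_moved {e : β × ZMod p ↪ Fin n} {h : Perm (Fin n)} {x : β × ZMod p}
    {g g' : Perm (β × ZMod p)} (hg : g x ≠ x) (hc : h * iota e g = iota e g' * h) :
    h (e x) ∈ Set.range e := by
  by_contra hn
  have h1 : h (e (g x)) = h (e x) := by
    have := DFunLike.congr_fun hc (e x)
    simp only [Perm.mul_apply, iota_apply] at this
    rwa [iota_apply_of_notMem e g' hn] at this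
  exact hg (e.injective (h.injective h1))

/-- The permutations inducing maps of a subsystem, read on the product. -/
noncomputable def small {e : β × ZMod p ↪ Fin n} {S : Sylow p (alternatingGroup (Fin n))}
    (I : Inducers S) (H : Subgroup (Perm (β × ZMod p))) (hH : lift e H ≤ (S : Subgroup _)) :
    Subgroup (Perm (β × ZMod p)) :=
  ((I.grp (lift e H) hH).map (alternatingGroup (Fin n)).subtype).comap (iota e)

section

variable {e : β × ZMod p ↪ Fin n} {S : Sylow p (alternatingGroup (Fin n))} {I : Inducers S}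
  {W : Subgroup (Perm β)} (hS : (S : Subgroup (alternatingGroup (Fin n))) = model W e)

theorem mem_small {H : Subgroup (Perm (β × ZMod p))} {hH : lift e H ≤ (S : Subgroup _)}
    {g : Perm (β × ZMod p)} :
    g ∈ small I H hH ↔ ∃ hg : Perm.sign g = 1, toAlt e g hg ∈ I.grp (lift e H) hH := by
  constructor
  · rintro ⟨x, hx, hxg⟩
    have hg : Perm.sign g = 1 := by
      rw [← sign_iota e, ← hxg]
      exact Perm.mem_alternatingGroup.1 x.2
    refine ⟨hg, ?_⟩
    rwa [show toAlt e g hg = x from Subtype.ext hxg.symm]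
  · rintro ⟨hg, hx⟩
    exact ⟨_, hx, rfl⟩

theorem conj_lift {H : Subgroup (Perm (β × ZMod p))} {g : Perm (β × ZMod p)} (hg : Perm.sign g = 1)
    (hn : ∀ y ∈ H, g * y * g⁻¹ ∈ H) :
    ∀ y ∈ lift e H, toAlt e g hg * y * (toAlt e g hg)⁻¹ ∈ lift e H := by
  rintro y ⟨z, hz, hzy⟩
  refine ⟨g * z * g⁻¹, hn z hz, ?_⟩
  rw [map_mul, map_mul, map_inv, hzy]
  rfl

theorem toAlt_mem_lift {H : Subgroup (Perm (β × ZMod p))} {g : Perm (β × ZMod p)}
    (hg : Perm.sign g = 1) (hgH : g ∈ H) : toAlt e g hg ∈ lift e H := ⟨g, hgH, rfl⟩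

include hS in
theorem lift_le {H : Subgroup (Perm (β × ZMod p))} (h : H ≤ wreathBy W) :
    lift e H ≤ (S : Subgroup (alternatingGroup (Fin n))) := by
  rw [hS]
  exact Subgroup.comap_mono (Subgroup.map_mono h)

include hS in
theorem small_inner {H : Subgroup (Perm (β × ZMod p))} (hH : lift e H ≤ (S : Subgroup _))
    {g : Perm (β × ZMod p)} (hg : g ∈ wreathBy W) (hs : Perm.sign g = 1)
    (hn : ∀ y ∈ H, g * y * g⁻¹ ∈ H) : g ∈ small I H hH :=
  mem_small.2 ⟨hs, I.inner _ hH _ (hS.symm ▸ toAlt_mem_lift hs hg) (conj_lift hs hn)⟩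

theorem small_conj {H : Subgroup (Perm (β × ZMod p))} {hH : lift e H ≤ (S : Subgroup _)}
    {x g : Perm (β × ZMod p)} (hs : Perm.sign x = 1) (hn : ∀ y ∈ H, x * y * x⁻¹ ∈ H)
    (hg : g ∈ small I H hH) : x * g * x⁻¹ ∈ small I H hH := by
  obtain ⟨hgs, hg'⟩ := mem_small.1 hg
  have hs' : Perm.sign (x * g * x⁻¹) = 1 := by simp [hs, hgs]
  refine mem_small.2 ⟨hs', ?_⟩
  have he : toAlt e (x * g * x⁻¹) hs' = toAlt e x hs * toAlt e g hgs * (toAlt e x hs)⁻¹ :=
    Subtype.ext (by simp [toAlt])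
  rw [he]
  exact I.conj _ hH _ _ (conj_lift hs hn) hg'

theorem small_up {Q R : Subgroup (Perm (β × ZMod p))} (hQR : Q ≤ R)
    {hQ : lift e Q ≤ (S : Subgroup _)} (hR : lift e R ≤ (S : Subgroup _))
    {g : Perm (β × ZMod p)}
    (hC : ∀ h : alternatingGroup (Fin n), (∀ y ∈ lift e Q, h * y = y * h) → h ∈ lift e Q)
    (hn : ∀ y ∈ R, g * y * g⁻¹ ∈ R) (hg : g ∈ small I Q hQ) : g ∈ small I R hR := by
  obtain ⟨hgs, hg'⟩ := mem_small.1 hg
  exact mem_small.2 ⟨hgs, I.up _ _ (Subgroup.comap_mono (Subgroup.map_mono hQR)) hR _ hC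
    (conj_lift hgs hn) hg'⟩

theorem small_down {Q R : Subgroup (Perm (β × ZMod p))} (hQR : Q ≤ R)
    (hQ : lift e Q ≤ (S : Subgroup _)) {hR : lift e R ≤ (S : Subgroup _)}
    {g : Perm (β × ZMod p)} (hn : ∀ y ∈ Q, g * y * g⁻¹ ∈ Q) (hg : g ∈ small I R hR) :
    g ∈ small I Q hQ := by
  obtain ⟨hgs, hg'⟩ := mem_small.1 hg
  exact mem_small.2 ⟨hgs, I.down _ _ (Subgroup.comap_mono (Subgroup.map_mono hQR)) hR _
    (conj_lift hgs hn) hg'⟩

end

/-- Centralisers of lifts, reduced to the product. -/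
theorem lift_selfCentralizing (e : β × ZMod p ↪ Fin n)
    (hfix : ∀ y z : Fin n, y ∉ Set.range e → z ∉ Set.range e → y = z)
    {Q : Subgroup (Perm (β × ZMod p))} (hQs : ∀ q ∈ Q, Perm.sign q = 1)
    (hmove : ∀ x, ∃ q ∈ Q, q x ≠ x)
    (hC : ∀ g : Perm (β × ZMod p), (∀ q ∈ Q, g * q = q * g) → g ∈ Q) :
    ∀ h : alternatingGroup (Fin n), (∀ y ∈ lift e Q, h * y = y * h) → h ∈ lift e Q := by
  intro h hh
  have hc : ∀ q ∈ Q, (h : Perm (Fin n)) * iota e q = iota e q * (h : Perm (Fin n)) := fun q hq =>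
    congrArg Subtype.val (hh _ (toAlt_mem_lift (e := e) (hQs q hq) hq))
  obtain ⟨g, hg⟩ := exists_small e hfix (h := (h : Perm (Fin n))) fun x => by
    obtain ⟨q, hq, hqx⟩ := hmove x
    exact mem_range_of_moved hqx (hc q hq)
  refine ⟨g, hC g fun q hq => iota_inj e ?_, hg.symm⟩
  rw [map_mul, map_mul, ← hg]
  exact hc q hq

end CfsgLib.AltFusion
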